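import Mathlib
import Cfsg.Prelude.Def_Blocks
import Cfsg.Agent.Lib.Helper16.FongReynolds2
import Cfsg.Agent.Lib.Helper16.Fong
import Cfsg.Agent.Lib.Helper77.NormalP
import Cfsg.Agent.Lib.Helper77.FusionPairs
import Cfsg.Agent.Lib.Helper77.SubBlock
import Cfsg.Agent.Lib.Helper77.Defect
import Cfsg.Agent.S0965
import Cfsg.Agent.S0970
import Cfsg.Agent.S0912

/-!
# Defect of the block covering a block with normal defect group

Let `Q` be a normal `p`-subgroup of `X`, `N` a normal subgroup containing `C_X(Q)`, `b` a block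
of `N` whose defect groups have the order of `Q`, and `T` the stabilizer of `b`.  Then the block
of `X` covering `b` has defect group `Q` iff `p` does not divide `|T : N|`.
-/

set_option autoImplicit false
set_option linter.unusedSectionVars false

namespace Cfsg.Agent.Lib.Helper32

open Cfsg Cfsg.Agent.Lib.Helper16

/-- transport along an isomorphism does not change the defect -/
theorem blockDefect_mapSet {H H' : Type*} [Group H] [Group H'] (α : H ≃* H') (p : ℕ)
    (A : Set (Cfsg.IrrCharacter H)) :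
    Cfsg.blockDefect p (Cfsg.Agent.Lib.Helper77.mapSet α A) = Cfsg.blockDefect p A := by
  unfold Cfsg.blockDefect Cfsg.Agent.Lib.Helper77.mapSet
  rw [Nat.card_congr α.toEquiv.symm, Set.image_image]
  have : (fun x : Cfsg.IrrCharacter H =>
      (Cfsg.charDegree (Cfsg.Agent.Lib.Helper77.mapIrr α x : H' → ℂ)).factorization p) =
      (fun χ : Cfsg.IrrCharacter H => (Cfsg.charDegree (χ : H → ℂ)).factorization p) := by
    funext χ
    unfold Cfsg.charDegree
    rw [Cfsg.Agent.Lib.Helper77.mapIrr_one]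
  rw [this]

section
variable {G : Type*} [Group G] [Fintype G] {p : ℕ} [Fact p.Prime] {M : Ideal Cfsg.AlgInt}

/-- a block of a normal subgroup `N ⊇ C_G(Q)`, `Q` a normal `p`-subgroup, induces every block
covering it -/
theorem cover_induced (hM : Cfsg.IsPModular p M) (Q : Subgroup G) [Q.Normal] (hQ : IsPGroup p Q)
    (N : Subgroup G) [hN : N.Normal] [Fintype N] (hCN : Subgroup.centralizer (Q : Set G) ≤ N)
    (b : Set (Cfsg.IrrCharacter N)) (hb : Cfsg.IsPBlock M b)
    (B : Set (Cfsg.IrrCharacter G)) (hB : Cfsg.IsPBlock M B)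
    (hcov : ∃ χ ∈ B, ∃ θ ∈ b, Cfsg.classInner (fun n : N => (χ : G → ℂ) n) (θ : N → ℂ) ≠ 0) :
    Cfsg.IsInducedBlock M N b B := by
  refine ⟨hb, hB, ?_⟩
  intro ξ hξ χ hχ g
  by_cases hg : g ∈ N
  · have h := (Cfsg.Agent.S0965.result p M hM N B hB b hb).mp hcov χ hχ ξ hξ ⟨g, hg⟩
    have h2 := Cfsg.Agent.Lib.Helper16.memLocalIdeal_neg h
    rwa [neg_sub] at h2
  · have h0 : Cfsg.inducedCentralChar N (ξ : N → ℂ) g = 0 := by
      unfold Cfsg.inducedCentralChar
      apply finsum_mem_eq_zero_of_forall_eq_zero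
      intro h hh
      exfalso
      apply hg
      obtain ⟨c, hc⟩ := isConj_iff.mp hh
      have h3 : c⁻¹ * (h : G) * c⁻¹⁻¹ ∈ N := hN.conj_mem _ h.2 c⁻¹
      rw [← hc] at h3
      simpa [mul_assoc] using h3
    rw [h0, zero_sub]
    exact Cfsg.Agent.Lib.Helper16.memLocalIdeal_neg
      (Cfsg.Agent.Lib.Helper77.memLocalIdeal_centralChar_of_not_mem_centralizer hM Q hQ g
        (fun h => hg (hCN h)) χ)

/-- **The defect of the covering block.** -/
theorem stab_defect_eq (hM : Cfsg.IsPModular p M) (Q : Subgroup G) [hQn : Q.Normal]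
    (hQ : IsPGroup p Q) (N : Subgroup G) [hN : N.Normal] [Fintype N]
    (hCN : Subgroup.centralizer (Q : Set G) ≤ N)
    (b : Set (Cfsg.IrrCharacter N)) (hb : Cfsg.IsPBlock M b)
    (T : Subgroup G) [Fintype T] (hNT : N ≤ T)
    (hstab : ∀ g : G, g ∈ T ↔ ∀ θ ∈ b, conjIrr N θ g ∈ b)
    (B₀ : Set (Cfsg.IrrCharacter G)) (hB₀ : Cfsg.IsPBlock M B₀)
    (hcov : ∃ χ ∈ B₀, ∃ θ ∈ b, Cfsg.classInner (fun n : N => (χ : G → ℂ) n) (θ : N → ℂ) ≠ 0) :
    Cfsg.blockDefect p B₀ = Cfsg.blockDefect p b + (N.relIndex T).factorization p := by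
  classical
  have hMp := isPrime_of_isPModular hM
  haveI : Fintype (N.subgroupOf T) := Fintype.ofFinite _
  obtain ⟨B', hB', hcov', hind'⟩ := fr_surj N T hNT hMp hb hstab hB₀ hcov
  obtain ⟨B₀', hind'', hcov'', hall, hirr, hmem⟩ := fr_induced N T hNT hMp hb hstab hB' hcov'
  have hB₀eq : B₀' = B₀ := isInducedBlock_unique hMp T hind'' hind'
  subst hB₀eq
  have hne' : B'.Nonempty := IsPBlock.nonempty hMp hB'
  have hdef1 : Cfsg.blockDefect p B₀' = Cfsg.blockDefect p B' :=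
    blockDefect_induced T p hmem hirr hne'
  haveI hN' : (N.subgroupOf T).Normal := hN.subgroupOf T
  have hb' : Cfsg.IsPBlock M (subBlock N T hNT b) :=
    Cfsg.Agent.Lib.Helper77.isPBlock_mapSet hMp _ hb
  have hinv' : ∀ θ' ∈ subBlock N T hNT b, ∀ t : T,
      conjIrr (N.subgroupOf T) θ' t ∈ subBlock N T hNT b :=
    subBlock_stable N T hNT (fun g hg θ hθ => (hstab g).mp hg θ hθ)
  have hcovT : ∃ ψ ∈ B', ∃ θ' ∈ subBlock N T hNT b,
      Cfsg.classInner (fun n' : N.subgroupOf T => (ψ : T → ℂ) n')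
        (θ' : N.subgroupOf T → ℂ) ≠ 0 := by
    obtain ⟨ψ, hψ, hover⟩ := hcov'
    exact ⟨ψ, hψ, (over_iff_sub N T hNT b (ψ : T → ℂ)).mpr hover⟩
  have huniq : ∀ B'' : Set (Cfsg.IrrCharacter T), Cfsg.IsPBlock M B'' →
      (∃ ψ ∈ B'', ∃ θ' ∈ subBlock N T hNT b,
        Cfsg.classInner (fun n' : N.subgroupOf T => (ψ : T → ℂ) n')
          (θ' : N.subgroupOf T → ℂ) ≠ 0) → B'' = B' := by
    intro B'' hB'' hc''
    have hc2 : ∃ ψ ∈ B'', Over N T hNT b (ψ : T → ℂ) := by
      obtain ⟨ψ, hψ, h⟩ := hc''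
      exact ⟨ψ, hψ, (over_iff_sub N T hNT b (ψ : T → ℂ)).mp h⟩
    obtain ⟨B₂, hind₂, hcov₂, -, -, -⟩ := fr_induced N T hNT hMp hb hstab hB'' hc2
    have hB₂ : B₂ = B₀' := by
      have h1 := cover_induced hM Q hQ N hCN b hb B₂ hind₂.2.1 hcov₂
      have h2 := cover_induced hM Q hQ N hCN b hb B₀' hB₀ hcov
      exact isInducedBlock_unique hMp N h1 h2
    rw [hB₂] at hind₂
    exact fr_inj N T hNT hMp hb hstab hB'' hB' hc2 hcov' hind₂ hind'
  obtain ⟨D', hD'⟩ := Cfsg.Agent.Lib.Helper77.exists_isDefectGroup p hMp B' hB'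
  have h970 := (Cfsg.Agent.S0970.result p M hM (N.subgroupOf T) (subBlock N T hNT b) hb'
    (by
      intro g θ hθ θ' hθ'
      have : θ' = conjIrr (N.subgroupOf T) θ g⁻¹ := by
        apply Subtype.ext
        funext n
        have hmem : ((g⁻¹)⁻¹ : T) * (n : T) * g⁻¹ ∈ N.subgroupOf T := by
          rw [inv_inv]; exact hN'.conj_mem n n.2 g
        rw [hθ' n, conjIrr_apply (N.subgroupOf T) θ g⁻¹ n hmem]
        exact congrArg (θ : N.subgroupOf T → ℂ) (Subtype.ext (by simp))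
      rw [this]
      exact hinv' θ hθ g⁻¹)
    B' hB' hcovT
    (by
      intro B'' hB'' hc''
      rw [huniq B'' hB'' hc''])
    D' hD').2.2
  rw [hdef1, h970]
  congr 1
  exact blockDefect_mapSet _ p b

/-- **Defect group of the covering block.**  `Q` is a defect group of the block covering `b` iff
`p` does not divide the index of `N` in the stabilizer of `b`. -/
theorem stab_defect (hM : Cfsg.IsPModular p M) (Q : Subgroup G) [hQn : Q.Normal]
    (hQ : IsPGroup p Q) (N : Subgroup G) [hN : N.Normal] [Fintype N]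
    (hCN : Subgroup.centralizer (Q : Set G) ≤ N)
    (b : Set (Cfsg.IrrCharacter N)) (hb : Cfsg.IsPBlock M b)
    (hcard : Nat.card Q = p ^ Cfsg.blockDefect p b)
    (T : Subgroup G) [Fintype T] (hNT : N ≤ T)
    (hstab : ∀ g : G, g ∈ T ↔ ∀ θ ∈ b, conjIrr N θ g ∈ b)
    (B₀ : Set (Cfsg.IrrCharacter G)) (hB₀ : Cfsg.IsPBlock M B₀)
    (hcov : ∃ χ ∈ B₀, ∃ θ ∈ b, Cfsg.classInner (fun n : N => (χ : G → ℂ) n) (θ : N → ℂ) ≠ 0) :
    Cfsg.IsDefectGroup p M B₀ Q ↔ ¬ p ∣ N.relIndex T := by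
  classical
  have hMp := isPrime_of_isPModular hM
  have hp : p.Prime := Fact.out
  have hdef := stab_defect_eq hM Q hQ N hCN b hb T hNT hstab B₀ hB₀ hcov
  have hrel0 : N.relIndex T ≠ 0 := by
    show (N.subgroupOf T).index ≠ 0
    exact Subgroup.index_ne_zero_of_finite
  constructor
  · intro hD
    have h1 := Cfsg.Agent.Lib.Helper77.card_isDefectGroup hM B₀ hB₀ Q hD
    rw [hcard] at h1
    have h2 := Nat.pow_right_injective hp.two_le h1
    have h3 : (N.relIndex T).factorization p = 0 := by omega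
    rcases (Nat.factorization_eq_zero_iff _ _).mp h3 with h | h | h
    · exact absurd hp h
    · exact h
    · exact absurd h hrel0
  · intro hnd
    have h3 := Nat.factorization_eq_zero_of_not_dvd hnd
    rw [h3, add_zero] at hdef
    obtain ⟨D, hD⟩ := Cfsg.Agent.Lib.Helper77.exists_isDefectGroup p hMp B₀ hB₀
    have hQD : Q ≤ D :=
      le_trans (le_sSup (⟨hQn, hQ⟩ : Q.Normal ∧ IsPGroup p Q))
        (Cfsg.Agent.S0912.result p M hM B₀ hB₀ D hD)
    have h1 := Cfsg.Agent.Lib.Helper77.card_isDefectGroup hM B₀ hB₀ D hD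
    have : Q = D := Subgroup.eq_of_le_of_card_ge hQD (by rw [h1, hcard, hdef])
    rw [this]
    exact hD

end

end Cfsg.Agent.Lib.Helper32
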