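import Mathlib
import Cfsg.Prelude.Def_Blocks
import Cfsg.Prelude.Def_Local
import Cfsg.Agent.Lib.Helper32.StabDefect
import Cfsg.Agent.Lib.Helper75.CharDecomp
import Cfsg.Agent.Lib.Helper75.CharInd
import Cfsg.Agent.Lib.Helper75.Clifford
import Cfsg.Agent.Lib.Helper75.CliffordCorr2
import Cfsg.Agent.Lib.Helper77.MinMax
import Cfsg.Agent.Lib.Helper77.Degree
import Cfsg.Agent.Lib.Helper23.PSolvConstr
import Cfsg.Agent.Lib.Helper49.PPrimeP
import Cfsg.Agent.Lib.Helper63.PLength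
import Cfsg.Agent.S0966
import Cfsg.Agent.S0908

/-!
# Fong's theorem on blocks of `p`-solvable groups over an invariant character of `O_{p'}(G)`

`fong_of_knorr`: given Knörr's theorem (as a hypothesis, for the group at hand), the irreducible
characters of a `p`-solvable group `G` over a `G`-invariant `θ ∈ Irr(O_{p'}(G))` form one block,
whose defect groups are the Sylow `p`-subgroups.
-/

set_option autoImplicit false
set_option linter.unusedSectionVars false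
set_option linter.style.haveILetI false

namespace Cfsg.Agent.Lib.Helper32

open Cfsg Cfsg.Agent.Lib.Helper16

section Trans

universe u
variable {G : Type u} [Group G] [Fintype G]

/-- a nonzero character has an irreducible constituent -/
theorem exists_irr_constituent {H : Type u} [Group H] [Fintype H] {φ : H → ℂ}
    (hφ : Cfsg.IsCharacter H φ) (h1 : φ 1 ≠ 0) :
    ∃ θ : Cfsg.IrrCharacter H, Cfsg.classInner φ (θ : H → ℂ) ≠ 0 := by
  classical
  haveI : Fintype (Cfsg.IrrCharacter H) := Fintype.ofFinite _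
  obtain ⟨m, hm, hsum⟩ := Cfsg.Agent.Lib.Helper75.char_eq_sum_irr hφ
  by_contra hcon
  push Not at hcon
  apply h1
  rw [hsum]
  rw [Finset.sum_apply]
  apply Finset.sum_eq_zero
  intro θ _
  have h0 : (m θ : ℂ) = 0 := by rw [← hm θ]; exact hcon θ
  rw [h0, zero_smul]
  rfl

/-- transitivity of "is a constituent of the restriction" along `N ≤ K ≤ G` -/
theorem constituent_trans (N K : Subgroup G) [Fintype N] [Fintype K] (hNK : N ≤ K)
    {χ : G → ℂ} (hχ : Cfsg.IsCharacter G χ) (ψ : Cfsg.IrrCharacter K)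
    (hψ : Cfsg.classInner (fun k : K => χ k) (ψ : K → ℂ) ≠ 0) (θ : Cfsg.IrrCharacter N)
    (hθ : Cfsg.classInner (fun n : N => (ψ : K → ℂ) ⟨n, hNK n.2⟩) (θ : N → ℂ) ≠ 0) :
    Cfsg.classInner (fun n : N => χ n) (θ : N → ℂ) ≠ 0 := by
  classical
  haveI : Fintype (Cfsg.IrrCharacter K) := Fintype.ofFinite _
  obtain ⟨m, hm, hsum⟩ := Cfsg.Agent.Lib.Helper75.char_eq_sum_irr
    (Cfsg.Agent.Lib.Helper75.isCharacter_res K hχ)
  have hres : (fun n : N => χ n) =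
      ∑ ψ' : Cfsg.IrrCharacter K, (m ψ' : ℂ) • (fun n : N => (ψ' : K → ℂ) ⟨n, hNK n.2⟩) := by
    funext n
    have := congrFun hsum ⟨(n : G), hNK n.2⟩
    rw [Finset.sum_apply] at this
    rw [Finset.sum_apply]
    exact this
  have hnat : ∀ ψ' : Cfsg.IrrCharacter K, ∃ k : ℕ,
      Cfsg.classInner (fun n : N => (ψ' : K → ℂ) ⟨n, hNK n.2⟩) (θ : N → ℂ) = k := fun ψ' =>
    Cfsg.Agent.Lib.Helper75.classInner_char_irr_nat
      (Cfsg.Agent.Lib.Helper75.isCharacter_res_le N K hNK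
        (Cfsg.Agent.Lib.Helper3.isCharacter_of_irr ψ'.2)) θ.2
  choose k hk using hnat
  rw [hres, Cfsg.Agent.Lib.Helper75.classInner_sum_left]
  have hterm : ∀ ψ' : Cfsg.IrrCharacter K,
      Cfsg.classInner ((m ψ' : ℂ) • (fun n : N => (ψ' : K → ℂ) ⟨n, hNK n.2⟩)) (θ : N → ℂ) =
        ((m ψ' * k ψ' : ℕ) : ℂ) := by
    intro ψ'
    rw [Cfsg.Agent.Lib.Helper75.classInner_smul_left, hk ψ']
    push_cast
    ring
  rw [Finset.sum_congr rfl (fun ψ' _ => hterm ψ'), ← Nat.cast_sum]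
  have hmψ : m ψ ≠ 0 := by
    intro h0
    apply hψ
    rw [hm ψ, h0]; simp
  have hkψ : k ψ ≠ 0 := by
    intro h0
    apply hθ
    rw [hk ψ, h0]; simp
  have hpos : 0 < ∑ ψ' : Cfsg.IrrCharacter K, m ψ' * k ψ' :=
    lt_of_lt_of_le (Nat.mul_pos (Nat.pos_of_ne_zero hmψ) (Nat.pos_of_ne_zero hkψ))
      (Finset.single_le_sum (f := fun ψ' => m ψ' * k ψ') (fun _ _ => Nat.zero_le _)
        (Finset.mem_univ ψ))
  exact_mod_cast hpos.ne'

end Trans

section Core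

universe u
variable {G : Type u} [Group G] [Fintype G]

/-- the invariance hypothesis of the frozen statements, from stability under `conjIrr` -/
theorem frozen_inv_of_conjIrr (N : Subgroup G) [hN : N.Normal] [Fintype N]
    {b : Set (Cfsg.IrrCharacter N)} (h : ∀ θ ∈ b, ∀ g : G, conjIrr N θ g ∈ b) :
    ∀ (g : G), ∀ θ ∈ b, ∀ θ' : Cfsg.IrrCharacter N,
      (∀ n : N, (θ' : N → ℂ) n = (θ : N → ℂ) ⟨g * n * g⁻¹, hN.conj_mem n n.2 g⟩) → θ' ∈ b := by
  intro g θ hθ θ' hθ'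
  have : θ' = conjIrr N θ g⁻¹ := by
    apply Subtype.ext
    funext n
    have hmem : (g⁻¹)⁻¹ * (n : G) * g⁻¹ ∈ N := by
      rw [inv_inv]; exact hN.conj_mem n n.2 g
    rw [hθ' n, conjIrr_apply N θ g⁻¹ n hmem]
    exact congrArg (θ : N → ℂ) (Subtype.ext (by simp))
  rw [this]
  exact h θ hθ g⁻¹

/-- **Fong's theorem, core form.**  `N` a normal `p'`-subgroup, `K ⊇ N` normal with `K/N` a
`p`-group and `C_G(S) ≤ K` for the Sylow `p`-subgroups `S` of `K`; `θ` a `G`-invariant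
irreducible character of `N`.  Given Knörr's theorem for `K`, the characters of `G` over `θ`
form a block whose defect groups are the Sylow `p`-subgroups. -/
theorem fong_core (p : ℕ) [Fact p.Prime] (M : Ideal Cfsg.AlgInt) (hM : Cfsg.IsPModular p M)
    (N : Subgroup G) [hN : N.Normal] [Fintype N] (hNcop : (Nat.card N).Coprime p)
    (K : Subgroup G) [hK : K.Normal] [Fintype K] (hNK : N ≤ K)
    (hidx : ∃ k, (N.subgroupOf K).index = p ^ k)
    (hcent : ∀ S : Sylow p K,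
      Subgroup.centralizer (((S : Subgroup K).map K.subtype : Subgroup G) : Set G) ≤ K)
    (θ : Cfsg.IrrCharacter N) (hconj : ∀ g : G, conjIrr N θ g = θ)
    (hKn : ∀ (b : Set (Cfsg.IrrCharacter K)), Cfsg.IsPBlock M b → ∀ (Q : Subgroup G), Q ≤ K →
      Cfsg.IsDefectGroup p M b (Q.subgroupOf K) → ∀ (B : Set (Cfsg.IrrCharacter G)),
      Cfsg.IsPBlock M B →
      (∃ χ ∈ B, ∃ ψ ∈ b, Cfsg.classInner (fun k : K => (χ : G → ℂ) k) (ψ : K → ℂ) ≠ 0) →
      ∃ P : Subgroup G, Cfsg.IsDefectGroup p M B P ∧ P ⊓ K = Q) :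
    ∃ B : Set (Cfsg.IrrCharacter G), Cfsg.IsPBlock M B ∧
      (∀ χ : Cfsg.IrrCharacter G,
        χ ∈ B ↔ Cfsg.classInner (fun n : N => (χ : G → ℂ) n) (θ : N → ℂ) ≠ 0) ∧
      (∀ P : Sylow p G, Cfsg.IsDefectGroup p M B (P : Subgroup G)) ∧
      ∀ D : Subgroup G, Cfsg.IsDefectGroup p M B D → ∃ P : Sylow p G, D = (P : Subgroup G) := by
  classical
  have hMp := isPrime_of_isPModular hM
  have hp : p.Prime := Fact.out
  -- `b = {θ}` is a block of defect zero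
  have hnd : ¬ p ∣ Nat.card N := (Nat.Prime.coprime_iff_not_dvd hp).mp hNcop.symm
  have hNfac : (Nat.card N).factorization p = 0 := Nat.factorization_eq_zero_of_not_dvd hnd
  have hbθ : Cfsg.blockOf M (θ : N → ℂ) = {θ} :=
    Cfsg.Agent.Lib.Helper77.blockOf_eq_singleton_of_defect_zero hM θ
      (fun h => hnd (dvd_trans h
        (Nat.div_dvd_of_dvd (Cfsg.Agent.Lib.Helper79.irr_charDegree θ.2).2.2)))
  obtain ⟨b, hbdef⟩ : ∃ b : Set (Cfsg.IrrCharacter N), b = {θ} := ⟨_, rfl⟩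
  have hθb : θ ∈ b := by rw [hbdef]; exact Set.mem_singleton θ
  have hb_eq : ∀ θ' ∈ b, θ' = θ := by
    intro θ' hθ'
    rw [hbdef] at hθ'
    exact Set.mem_singleton_iff.mp hθ'
  have hb : Cfsg.IsPBlock M b := ⟨θ, by rw [hbdef, hbθ]⟩
  have hbdefect : Cfsg.blockDefect p b = 0 := by
    unfold Cfsg.blockDefect
    rw [hNfac, Nat.zero_sub]
  have hbinv : ∀ θ' ∈ b, ∀ g : G, conjIrr N θ' g ∈ b := by
    intro θ' hθ' g
    rw [hb_eq θ' hθ', hconj g]
    exact hθb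
  -- the unique block `β` of `K` over `b`
  haveI : Fintype (N.subgroupOf K) := Fintype.ofFinite _
  haveI hN' : (N.subgroupOf K).Normal := hN.subgroupOf K
  have hb' : Cfsg.IsPBlock M (subBlock N K hNK b) :=
    Cfsg.Agent.Lib.Helper77.isPBlock_mapSet hMp _ hb
  obtain ⟨β, ⟨hβ, hβcov⟩, hβuniq⟩ :=
    Cfsg.Agent.S0966.result p M hM (N.subgroupOf K) hidx (subBlock N K hNK b) hb'
  have hinv' : ∀ θ' ∈ subBlock N K hNK b, ∀ t : K,
      conjIrr (N.subgroupOf K) θ' t ∈ subBlock N K hNK b :=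
    subBlock_stable N K hNK (fun g _ θ₁ hθ₁ => hbinv θ₁ hθ₁ g)
  obtain ⟨DK, hDK⟩ := Cfsg.Agent.Lib.Helper77.exists_isDefectGroup p hMp β hβ
  have h970 := (Cfsg.Agent.S0970.result p M hM (N.subgroupOf K) (subBlock N K hNK b) hb'
    (frozen_inv_of_conjIrr (N.subgroupOf K) hinv') β hβ hβcov
    (by
      intro B' hB' hc'
      rw [hβuniq B' ⟨hB', hc'⟩])
    DK hDK).2.2
  have hb'defect : Cfsg.blockDefect p (subBlock N K hNK b) = 0 := by
    unfold subBlock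
    rw [blockDefect_mapSet]
    exact hbdefect
  have hKfac : (Nat.card K).factorization p = (N.subgroupOf K).index.factorization p := by
    have h1 : Nat.card K = Nat.card (N.subgroupOf K) * (N.subgroupOf K).index :=
      (Subgroup.card_mul_index _).symm
    have h2 : Nat.card (N.subgroupOf K) = Nat.card N :=
      Nat.card_congr (Subgroup.subgroupOfEquivOfLe hNK).toEquiv
    rw [h1, h2, Nat.factorization_mul Nat.card_pos.ne' Subgroup.index_ne_zero_of_finite,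
      Finsupp.add_apply, hNfac, zero_add]
  have hDKcard : Nat.card DK = p ^ (Nat.card K).factorization p := by
    rw [Cfsg.Agent.Lib.Helper77.card_isDefectGroup hM β hβ DK hDK, h970, hb'defect, zero_add,
      hKfac]
  have hcK : Subgroup.centralizer (((DK.map K.subtype : Subgroup G)) : Set G) ≤ K :=
    hcent (Sylow.ofCard DK hDKcard)
  obtain ⟨Q, hQdef⟩ : ∃ Q : Subgroup G, Q = DK.map K.subtype := ⟨_, rfl⟩
  have hQK : Q ≤ K := by rw [hQdef]; exact Subgroup.map_subtype_le DK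
  have hQsub : Q.subgroupOf K = DK := by
    rw [hQdef]
    exact Subgroup.comap_map_eq_self_of_injective K.subtype_injective DK
  rw [← hQdef] at hcK
  -- every character over `θ` lies over a member of `β`
  have hcovβ : ∀ χ : Cfsg.IrrCharacter G,
      Cfsg.classInner (fun n : N => (χ : G → ℂ) n) (θ : N → ℂ) ≠ 0 →
      ∃ ψ ∈ β, Cfsg.classInner (fun k : K => (χ : G → ℂ) k) (ψ : K → ℂ) ≠ 0 := by
    intro χ hχ
    obtain ⟨ψ, hψ⟩ := exists_irr_under K χ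
    have hψres : Cfsg.IsCharacter N (fun n : N => (ψ : K → ℂ) ⟨n, hNK n.2⟩) :=
      Cfsg.Agent.Lib.Helper75.isCharacter_res_le N K hNK
        (Cfsg.Agent.Lib.Helper3.isCharacter_of_irr ψ.2)
    obtain ⟨θ₂, hθ₂⟩ := exists_irr_constituent hψres (irr_one_ne_zero ψ)
    have h3 := constituent_trans N K hNK (Cfsg.Agent.Lib.Helper3.isCharacter_of_irr χ.2) ψ hψ
      θ₂ hθ₂
    obtain ⟨g, hg⟩ := Cfsg.Agent.Lib.Helper75.clifford_conj N χ.2 θ.2 θ₂.2 hχ h3
    have hθ₂eq : θ₂ = θ := by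
      apply Subtype.ext
      rw [← hg]
      exact congrArg Subtype.val (hconj g)
    rw [hθ₂eq] at hθ₂
    refine ⟨ψ, ?_, hψ⟩
    have hcovψ : ∃ ψ' ∈ Cfsg.blockOf M (ψ : K → ℂ), ∃ θ' ∈ subBlock N K hNK b,
        Cfsg.classInner (fun n' : N.subgroupOf K => (ψ' : K → ℂ) n')
          (θ' : N.subgroupOf K → ℂ) ≠ 0 :=
      ⟨ψ, mem_blockOf_self hMp ψ, (over_iff_sub N K hNK b (ψ : K → ℂ)).mpr ⟨θ, hθb, hθ₂⟩⟩
    have h4 := hβuniq (Cfsg.blockOf M (ψ : K → ℂ)) ⟨⟨ψ, rfl⟩, hcovψ⟩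
    rw [← h4]
    exact mem_blockOf_self hMp ψ
  -- central characters of such blocks vanish outside `K`
  have hoff : ∀ B2 : Set (Cfsg.IrrCharacter G), Cfsg.IsPBlock M B2 →
      (∃ χ ∈ B2, Cfsg.classInner (fun n : N => (χ : G → ℂ) n) (θ : N → ℂ) ≠ 0) →
      ∀ χ' ∈ B2, ∀ g : G, g ∉ K → Cfsg.MemLocalIdeal M (Cfsg.centralChar (χ' : G → ℂ) g) := by
    rintro B2 hB2 ⟨χ, hχB2, hχ⟩ χ' hχ' g hg
    by_contra hne
    obtain ⟨ψ, hψβ, hψ⟩ := hcovβ χ hχ
    obtain ⟨P2, hP2, hP2K⟩ := hKn β hβ Q hQK (by rw [hQsub]; exact hDK) B2 hB2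
      ⟨χ, hχB2, ψ, hψβ, hψ⟩
    obtain ⟨g₀, hg₀, Syl, hSyl⟩ := hP2
    obtain ⟨x, Q', hle⟩ := Cfsg.Agent.Lib.Helper77.minmax_b hM B2 hB2 g₀ hg₀ Syl g
      ⟨χ', hχ', hne⟩
    apply hg
    have hc : x⁻¹ * g * x ∈ Subgroup.centralizer ((Q : Subgroup G) : Set G) := by
      rw [Subgroup.mem_centralizer_iff]
      intro q hq
      have hqP2 : q ∈ P2 := by
        have h5 : q ∈ P2 ⊓ K := by rw [hP2K]; exact hq
        exact h5.1
      rw [hSyl] at hqP2
      have h1 : x * q * x⁻¹ ∈ Subgroup.map (MulEquiv.toMonoidHom (MulAut.conj x))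
          (Subgroup.map (Subgroup.centralizer {g₀}).subtype ↑Syl) :=
        ⟨q, hqP2, by simp [MulAut.conj_apply]⟩
      obtain ⟨y, -, hy⟩ := hle h1
      have h3 : x * q * x⁻¹ ∈ Subgroup.centralizer ({g} : Set G) := by
        rw [← hy]; exact y.2
      rw [Subgroup.mem_centralizer_iff] at h3
      have h4 := h3 g rfl
      calc q * (x⁻¹ * g * x) = x⁻¹ * (x * q * x⁻¹ * g) * x := by group
        _ = x⁻¹ * (g * (x * q * x⁻¹)) * x := by rw [h4]
        _ = x⁻¹ * g * x * q := by group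
    have hcK' := hcK hc
    have h6 : g = x * (x⁻¹ * g * x) * x⁻¹ := by group
    rw [h6]
    exact hK.conj_mem _ hcK' x
  -- uniqueness of the block over `θ`
  have huniq : ∀ B2 B3 : Set (Cfsg.IrrCharacter G), Cfsg.IsPBlock M B2 → Cfsg.IsPBlock M B3 →
      (∃ χ ∈ B2, Cfsg.classInner (fun n : N => (χ : G → ℂ) n) (θ : N → ℂ) ≠ 0) →
      (∃ χ ∈ B3, Cfsg.classInner (fun n : N => (χ : G → ℂ) n) (θ : N → ℂ) ≠ 0) → B2 = B3 := by
    intro B2 B3 hB2 hB3 h2 h3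
    obtain ⟨χ2, hχ2, hc2⟩ := h2
    obtain ⟨χ3, hχ3, hc3⟩ := h3
    obtain ⟨ψ2, hψ2β, hψ2⟩ := hcovβ χ2 hc2
    obtain ⟨ψ3, hψ3β, hψ3⟩ := hcovβ χ3 hc3
    have hsame : Cfsg.SameBlock M (χ2 : G → ℂ) (χ3 : G → ℂ) := by
      intro g
      by_cases hg : g ∈ K
      · have e2 := (Cfsg.Agent.S0965.result p M hM K B2 hB2 β hβ).mp
          ⟨χ2, hχ2, ψ2, hψ2β, hψ2⟩ χ2 hχ2 ψ2 hψ2β ⟨g, hg⟩
        have e3 := (Cfsg.Agent.S0965.result p M hM K B3 hB3 β hβ).mp
          ⟨χ3, hχ3, ψ3, hψ3β, hψ3⟩ χ3 hχ3 ψ2 hψ2β ⟨g, hg⟩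
        have e4 := memLocalIdeal_sub hMp e2 e3
        rwa [sub_sub_sub_cancel_right] at e4
      · exact memLocalIdeal_sub hMp (hoff B2 hB2 ⟨χ2, hχ2, hc2⟩ χ2 hχ2 g hg)
          (hoff B3 hB3 ⟨χ3, hχ3, hc3⟩ χ3 hχ3 g hg)
    rw [IsPBlock.eq_blockOf hMp hB2 hχ2, IsPBlock.eq_blockOf hMp hB3 hχ3]
    exact blockOf_eq_of_sameBlock hMp hsame
  -- the block
  obtain ⟨χ₀, hχ₀⟩ := exists_irr_over N θ
  obtain ⟨B, hBdef⟩ : ∃ B : Set (Cfsg.IrrCharacter G), B = Cfsg.blockOf M (χ₀ : G → ℂ) :=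
    ⟨_, rfl⟩
  have hB : Cfsg.IsPBlock M B := ⟨χ₀, hBdef⟩
  have hχ₀B : χ₀ ∈ B := by rw [hBdef]; exact mem_blockOf_self hMp χ₀
  have hmem : ∀ χ : Cfsg.IrrCharacter G,
      χ ∈ B ↔ Cfsg.classInner (fun n : N => (χ : G → ℂ) n) (θ : N → ℂ) ≠ 0 := by
    intro χ
    constructor
    · intro hχ
      obtain ⟨θ', hθ', hne⟩ := cover_all N hMp hB hb hχ₀B hθb hχ₀ hχ
      rw [hb_eq θ' hθ'] at hne
      exact hne
    · intro hχ
      have h7 := huniq (Cfsg.blockOf M (χ : G → ℂ)) B ⟨χ, rfl⟩ hB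
        ⟨χ, mem_blockOf_self hMp χ, hχ⟩ ⟨χ₀, hχ₀B, hχ₀⟩
      rw [← h7]
      exact mem_blockOf_self hMp χ
  -- defect groups
  obtain ⟨D₀, hD₀⟩ := Cfsg.Agent.Lib.Helper77.exists_isDefectGroup p hMp B hB
  have h970G := (Cfsg.Agent.S0970.result p M hM N b hb (frozen_inv_of_conjIrr N hbinv) B hB
    ⟨χ₀, hχ₀B, θ, hθb, hχ₀⟩
    (by
      rintro B' hB' ⟨χ, hχ, θ', hθ', hne⟩
      rw [hb_eq θ' hθ'] at hne
      rw [huniq B' B hB' hB ⟨χ, hχ, hne⟩ ⟨χ₀, hχ₀B, hχ₀⟩])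
    D₀ hD₀).2.2
  have hGfac : (Nat.card G).factorization p = N.index.factorization p := by
    rw [← Subgroup.card_mul_index N,
      Nat.factorization_mul Nat.card_pos.ne' Subgroup.index_ne_zero_of_finite,
      Finsupp.add_apply, hNfac, zero_add]
  have hBdefect : Cfsg.blockDefect p B = (Nat.card G).factorization p := by
    rw [h970G, hbdefect, zero_add, hGfac]
  have hcardD : ∀ D : Subgroup G, Cfsg.IsDefectGroup p M B D →
      Nat.card D = p ^ (Nat.card G).factorization p := by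
    intro D hD
    rw [Cfsg.Agent.Lib.Helper77.card_isDefectGroup hM B hB D hD, hBdefect]
  refine ⟨B, hB, hmem, ?_, ?_⟩
  · intro P
    obtain ⟨g, hg⟩ := MulAction.exists_smul_eq G (Sylow.ofCard D₀ (hcardD D₀ hD₀)) P
    have h1 := Cfsg.Agent.Lib.Helper77.isDefectGroup_map_conj hD₀ g
    have h2 : (P : Subgroup G) = Subgroup.map (MulEquiv.toMonoidHom (MulAut.conj g)) D₀ := by
      rw [← hg, Sylow.coe_subgroup_smul, Subgroup.pointwise_smul_def]
      rfl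
    rw [h2]
    exact h1
  · intro D hD
    exact ⟨Sylow.ofCard D (hcardD D hD), rfl⟩


/-- **Fong's theorem** on the blocks of a `p`-solvable group over a `G`-invariant character of
`O_{p'}(G)`, given Knörr's theorem (for the group at hand) as a hypothesis. -/
theorem fong_of_knorr (p : ℕ) [Fact p.Prime] (M : Ideal Cfsg.AlgInt) (hM : Cfsg.IsPModular p M)
    (hsolv : Cfsg.IsPSolvable p G) (N : Subgroup G) [hN : N.Normal] [Fintype N]
    (hNdef : N = Cfsg.pPrimeCore p G) (θ : Cfsg.IrrCharacter N)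
    (hinv : ∀ (g : G) (n : N),
      (θ : N → ℂ) ⟨g * n * g⁻¹, hN.conj_mem n n.2 g⟩ = (θ : N → ℂ) n)
    (hKn : ∀ (K : Subgroup G) [K.Normal] [Fintype K] (b : Set (Cfsg.IrrCharacter K)),
      Cfsg.IsPBlock M b → ∀ (Q : Subgroup G), Q ≤ K →
      Cfsg.IsDefectGroup p M b (Q.subgroupOf K) → ∀ (B : Set (Cfsg.IrrCharacter G)),
      Cfsg.IsPBlock M B →
      (∃ χ ∈ B, ∃ ψ ∈ b, Cfsg.classInner (fun k : K => (χ : G → ℂ) k) (ψ : K → ℂ) ≠ 0) →
      ∃ P : Subgroup G, Cfsg.IsDefectGroup p M B P ∧ P ⊓ K = Q) :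
    ∃ B : Set (Cfsg.IrrCharacter G), Cfsg.IsPBlock M B ∧
      (∀ χ : Cfsg.IrrCharacter G,
        χ ∈ B ↔ Cfsg.classInner (fun n : N => (χ : G → ℂ) n) (θ : N → ℂ) ≠ 0) ∧
      (∀ P : Sylow p G, Cfsg.IsDefectGroup p M B (P : Subgroup G)) ∧
      ∀ D : Subgroup G, Cfsg.IsDefectGroup p M B D → ∃ P : Sylow p G, D = (P : Subgroup G) := by
  classical
  subst hNdef
  haveI hKnorm : (Cfsg.pPrimePCore p G).Normal := Cfsg.Agent.Lib.Helper49.pPrimePCore_normal p G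
  haveI : Fintype (Cfsg.pPrimePCore p G) := Fintype.ofFinite _
  have hNK : Cfsg.pPrimeCore p G ≤ Cfsg.pPrimePCore p G :=
    Cfsg.Agent.Lib.Helper49.pPrimeCore_le_pPrimePCore p G
  have hNcop : (Nat.card (Cfsg.pPrimeCore p G)).Coprime p :=
    Cfsg.Agent.Lib.Helper63.card_pPrimeCore_coprime' p G
  have hidx : ∃ k, ((Cfsg.pPrimeCore p G).subgroupOf (Cfsg.pPrimePCore p G)).index = p ^ k := by
    have hpg : IsPGroup p ((Cfsg.pPrimePCore p G) ⧸
        ((Cfsg.pPrimeCore p G).subgroupOf (Cfsg.pPrimePCore p G))) := by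
      intro x
      obtain ⟨k, rfl⟩ := QuotientGroup.mk_surjective x
      have hk : QuotientGroup.mk' (Cfsg.pPrimeCore p G) (k : G) ∈
          Cfsg.pCore p (G ⧸ Cfsg.pPrimeCore p G) := k.2
      obtain ⟨j, hj⟩ :=
        (Cfsg.Agent.Lib.Helper63.pCore_isPGroup' p (G ⧸ Cfsg.pPrimeCore p G)) ⟨_, hk⟩
      refine ⟨j, ?_⟩
      have hj' : (QuotientGroup.mk' (Cfsg.pPrimeCore p G) (k : G)) ^ p ^ j = 1 := by
        have := congrArg Subtype.val hj
        simpa using this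
      rw [← map_pow, QuotientGroup.mk'_apply, QuotientGroup.eq_one_iff] at hj'
      rw [← QuotientGroup.mk_pow, QuotientGroup.eq_one_iff, Subgroup.mem_subgroupOf]
      simpa using hj'
    obtain ⟨n, hn⟩ := IsPGroup.iff_card.mp hpg
    exact ⟨n, by rw [Subgroup.index_eq_card]; exact hn⟩
  have hcon := Cfsg.Agent.Lib.Helper23.isPConstrained_of_isPSolvable p hsolv
  have hconj : ∀ g : G, conjIrr (Cfsg.pPrimeCore p G) θ g = θ := by
    intro g
    apply Subtype.ext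
    funext n
    have hmem : g⁻¹ * (n : G) * g ∈ Cfsg.pPrimeCore p G := by
      have := hN.conj_mem n n.2 g⁻¹
      simpa using this
    rw [conjIrr_apply _ θ g n hmem]
    have := hinv g⁻¹ n
    rw [← this]
    exact congrArg (θ : (Cfsg.pPrimeCore p G) → ℂ) (Subtype.ext (by simp))
  exact fong_core p M hM (Cfsg.pPrimeCore p G) hNcop (Cfsg.pPrimePCore p G) hNK hidx
    (fun S => hcon S) θ hconj
    (fun b hb Q hQK hQ B hB hcov => hKn (Cfsg.pPrimePCore p G) b hb Q hQK hQ B hB hcov)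

end Core

end Cfsg.Agent.Lib.Helper32
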