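import Mathlib
import Cfsg.Prelude.Def_Blocks
import Cfsg.Prelude.Def_BrauerPairs
import Cfsg.Agent.Lib.Helper32.FongPSolv
import Cfsg.Agent.Lib.Helper77.IndPairs
import Cfsg.Agent.Lib.Helper16.FirstMain
import Cfsg.Agent.Lib.Helper75.Glaub7
import Cfsg.Agent.Lib.Helper3.KnorrTr
import Cfsg.Agent.Lib.Helper49.PConstr
import Cfsg.Agent.Lib.Helper22.PComp
import Cfsg.Agent.Lib.Helper78.LocalIdeal
import Cfsg.Agent.S0631
import Cfsg.Agent.S0661

/-!
# Blocks of `p`-constrained groups over an invariant character of `O_{p'}(G)`: principal type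

`fong_con`: Fong's theorem for `p`-constrained groups (given Knörr's theorem as a hypothesis).

`isInducedBlock_of_isBrauerPairOf`: a Brauer pair `(R, f)` of `B` has `f^G = B`.

`princ_type`: for a `p`-constrained group, the block of the characters over a `G`-invariant
irreducible character of `O_{p'}(G)` is induced from exactly one block of `C_G(R)`, for every
`p`-subgroup `R`.
-/

set_option autoImplicit false
set_option linter.unusedSectionVars false
set_option linter.style.haveILetI false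

namespace Cfsg.Agent.Lib.Helper32

open Cfsg Cfsg.Agent.Lib.Helper16

section Con

universe u
variable {G : Type u} [Group G] [Fintype G]

/-- `O_{p',p}(G) / O_{p'}(G)` is a `p`-group -/
theorem pcore_index (p : ℕ) [Fact p.Prime] (G : Type u) [Group G] [Fintype G] :
    ∃ k, ((Cfsg.pPrimeCore p G).subgroupOf (Cfsg.pPrimePCore p G)).index = p ^ k := by
  haveI hKnorm : (Cfsg.pPrimePCore p G).Normal := Cfsg.Agent.Lib.Helper49.pPrimePCore_normal p G
  have hpg : IsPGroup p ((Cfsg.pPrimePCore p G) ⧸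
      ((Cfsg.pPrimeCore p G).subgroupOf (Cfsg.pPrimePCore p G))) := by
    intro x
    obtain ⟨k, rfl⟩ := QuotientGroup.mk_surjective x
    have hk : QuotientGroup.mk' (Cfsg.pPrimeCore p G) (k : G) ∈
        Cfsg.pCore p (G ⧸ Cfsg.pPrimeCore p G) := k.2
    obtain ⟨j, hj⟩ :=
      (Cfsg.Agent.Lib.Helper63.pCore_isPGroup' p (G ⧸ Cfsg.pPrimeCore p G)) ⟨_, hk⟩
    refine ⟨j, ?_⟩
    have hj' : (QuotientGroup.mk' (Cfsg.pPrimeCore p G) (k : G)) ^ p ^ j = 1 := by
      have := congrArg Subtype.val hj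
      simpa using this
    rw [← map_pow, QuotientGroup.mk'_apply, QuotientGroup.eq_one_iff] at hj'
    rw [← QuotientGroup.mk_pow, QuotientGroup.eq_one_iff, Subgroup.mem_subgroupOf]
    simpa using hj'
  obtain ⟨n, hn⟩ := IsPGroup.iff_card.mp hpg
  exact ⟨n, by rw [Subgroup.index_eq_card]; exact hn⟩

/-- **Fong's theorem for `p`-constrained groups**, given Knörr's theorem as a hypothesis. -/
theorem fong_con (p : ℕ) [Fact p.Prime] (M : Ideal Cfsg.AlgInt) (hM : Cfsg.IsPModular p M)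
    (hcon : Cfsg.IsPConstrained p G) (N : Subgroup G) [hN : N.Normal] [Fintype N]
    (hNdef : N = Cfsg.pPrimeCore p G) (θ : Cfsg.IrrCharacter N)
    (hconj : ∀ g : G, conjIrr N θ g = θ)
    (hKn : ∀ (K : Subgroup G) [K.Normal] [Fintype K] (b : Set (Cfsg.IrrCharacter K)),
      Cfsg.IsPBlock M b → ∀ (Q : Subgroup G), Q ≤ K →
      Cfsg.IsDefectGroup p M b (Q.subgroupOf K) → ∀ (B : Set (Cfsg.IrrCharacter G)),
      Cfsg.IsPBlock M B →
      (∃ χ ∈ B, ∃ ψ ∈ b, Cfsg.classInner (fun k : K => (χ : G → ℂ) k) (ψ : K → ℂ) ≠ 0) →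
      ∃ P : Subgroup G, Cfsg.IsDefectGroup p M B P ∧ P ⊓ K = Q) :
    ∃ B : Set (Cfsg.IrrCharacter G), Cfsg.IsPBlock M B ∧
      (∀ χ : Cfsg.IrrCharacter G,
        χ ∈ B ↔ Cfsg.classInner (fun n : N => (χ : G → ℂ) n) (θ : N → ℂ) ≠ 0) ∧
      (∀ P : Sylow p G, Cfsg.IsDefectGroup p M B (P : Subgroup G)) ∧
      ∀ D : Subgroup G, Cfsg.IsDefectGroup p M B D → ∃ P : Sylow p G, D = (P : Subgroup G) := by
  classical
  subst hNdef
  haveI hKnorm : (Cfsg.pPrimePCore p G).Normal := Cfsg.Agent.Lib.Helper49.pPrimePCore_normal p G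
  haveI : Fintype (Cfsg.pPrimePCore p G) := Fintype.ofFinite _
  exact fong_core p M hM (Cfsg.pPrimeCore p G)
    (Cfsg.Agent.Lib.Helper63.card_pPrimeCore_coprime' p G) (Cfsg.pPrimePCore p G)
    (Cfsg.Agent.Lib.Helper49.pPrimeCore_le_pPrimePCore p G) (pcore_index p G)
    (fun S => hcon S) θ hconj
    (fun b hb Q hQK hQ B hB hcov => hKn (Cfsg.pPrimePCore p G) b hb Q hQK hQ B hB hcov)

end Con

section Bridge

variable {G : Type*} [Group G] [Fintype G] {M : Ideal Cfsg.AlgInt} {p : ℕ} [Fact p.Prime]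

/-- **Brauer pairs give induced blocks.**  If `(R, f)` is a Brauer pair of `B`, then the block
`f` of `C_G(R)` induces `B`. -/
theorem isInducedBlock_of_isBrauerPairOf (hM : Cfsg.IsPModular p M) {R : Subgroup G}
    {f : Set (Cfsg.IrrCharacter (Subgroup.centralizer (R : Set G)))}
    {B : Set (Cfsg.IrrCharacter G)} (h : Cfsg.IsBrauerPairOf p M B R f) :
    Cfsg.IsInducedBlock M (Subgroup.centralizer (R : Set G)) f B := by
  classical
  have hMp := isPrime_of_isPModular hM
  haveI : Fintype (Subgroup.centralizer (R : Set G)) := Fintype.ofFinite _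
  obtain ⟨⟨hR, hf⟩, hB, hω⟩ := h
  obtain ⟨ξ, hξ⟩ := IsPBlock.nonempty hMp hf
  obtain ⟨χ, hχ⟩ := exists_irr_brauer hM R (Subgroup.centralizer (R : Set G)) hR le_rfl
    (Subgroup.centralizer_le_normalizer (R : Set G)) ξ
  have hbr : ∀ α : G → ℂ, brRes R (Subgroup.centralizer (R : Set G)) α =
      resFun (Subgroup.centralizer (R : Set G)) α := by
    intro α
    funext h
    unfold brRes resFun
    rw [if_pos h.2]
  have hχB : χ ∈ B := by
    by_contra hcon
    have h1 := hχ _ (isRClass_blockCoeff hMp hB)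
    rw [omega_blockCoeff hMp hB χ, if_neg hcon, sub_zero] at h1
    have h2 := hω ξ hξ
    have e : Cfsg.brauerOmega R (Cfsg.blockCoeff B)
        (ξ : Subgroup.centralizer (R : Set G) → ℂ) =
        omega (ξ : Subgroup.centralizer (R : Set G) → ℂ)
          (brRes R (Subgroup.centralizer (R : Set G)) (Cfsg.blockCoeff B)) := by
      rw [hbr]
      unfold Cfsg.brauerOmega omega resFun
      rw [finsum_eq_sum_of_fintype]
    rw [e] at h2
    have h3 := memLocalIdeal_sub hMp h1 h2
    rw [sub_sub_cancel] at h3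
    exact not_memLocalIdeal_one hMp h3
  rw [IsPBlock.eq_blockOf hMp hf hξ, IsPBlock.eq_blockOf hMp hB hχB]
  refine ⟨⟨ξ, rfl⟩, ⟨χ, rfl⟩, ?_⟩
  intro ξ' hξ' χ' hχ' g
  have h1 : Cfsg.MemLocalIdeal M
      (Cfsg.inducedCentralChar (Subgroup.centralizer (R : Set G))
        (ξ' : Subgroup.centralizer (R : Set G) → ℂ) g -
      Cfsg.inducedCentralChar (Subgroup.centralizer (R : Set G))
        (ξ : Subgroup.centralizer (R : Set G) → ℂ) g) :=
    inducedCentralChar_sub_mem hMp _ (irrCharacter_conj_eq ξ') (irrCharacter_conj_eq ξ)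
      (sameBlock_symm hξ') g
  have hset : {h : Subgroup.centralizer (R : Set G) | IsConj g (h : G) ∧
      (h : G) ∈ Subgroup.centralizer (R : Set G)} =
      {h : Subgroup.centralizer (R : Set G) | IsConj g (h : G)} :=
    Set.ext fun h => ⟨fun hc => hc.1, fun hc => ⟨hc, h.2⟩⟩
  have h2 : Cfsg.inducedCentralChar (Subgroup.centralizer (R : Set G))
      (ξ : Subgroup.centralizer (R : Set G) → ℂ) g =
      Cfsg.brauerCentralChar R (Subgroup.centralizer (R : Set G))
        (ξ : Subgroup.centralizer (R : Set G) → ℂ) g := by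
    unfold Cfsg.inducedCentralChar Cfsg.brauerCentralChar
    rw [hset]
  have h3 := hχ (classInd g) (isRClass_classInd hMp g)
  rw [← brauerCentralChar_eq_omega, omega_classInd (irrCharacter_conj_eq χ)] at h3
  have h4 : Cfsg.MemLocalIdeal M (Cfsg.centralChar (χ : G → ℂ) g -
      Cfsg.centralChar (χ' : G → ℂ) g) := hχ' g
  have e : Cfsg.inducedCentralChar (Subgroup.centralizer (R : Set G))
      (ξ' : Subgroup.centralizer (R : Set G) → ℂ) g - Cfsg.centralChar (χ' : G → ℂ) g =
      (Cfsg.inducedCentralChar (Subgroup.centralizer (R : Set G))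
        (ξ' : Subgroup.centralizer (R : Set G) → ℂ) g -
      Cfsg.inducedCentralChar (Subgroup.centralizer (R : Set G))
        (ξ : Subgroup.centralizer (R : Set G) → ℂ) g) +
      (Cfsg.brauerCentralChar R (Subgroup.centralizer (R : Set G))
        (ξ : Subgroup.centralizer (R : Set G) → ℂ) g - Cfsg.centralChar (χ : G → ℂ) g) +
      (Cfsg.centralChar (χ : G → ℂ) g - Cfsg.centralChar (χ' : G → ℂ) g) := by
    rw [h2]; ring
  rw [e]
  exact memLocalIdeal_add hMp (memLocalIdeal_add hMp h1 h3) h4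

/-- a block is induced from the centralizer of every `p`-subgroup of a defect group -/
theorem exists_induced_centralizer (hM : Cfsg.IsPModular p M) {B : Set (Cfsg.IrrCharacter G)}
    (hB : Cfsg.IsPBlock M B) {R : Subgroup G} (hR : IsPGroup p R) {D : Subgroup G}
    (hD : Cfsg.IsDefectGroup p M B D) (hRD : R ≤ D) :
    ∃ f : Set (Cfsg.IrrCharacter (Subgroup.centralizer (R : Set G))),
      Cfsg.IsInducedBlock M (Subgroup.centralizer (R : Set G)) f B := by
  obtain ⟨g0, hg0, hg0D, -⟩ := exists_isDefectClass_mem_centralizer hD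
  obtain ⟨e, he⟩ := Cfsg.Agent.Lib.Helper77.exists_isBrauerPairOf_of_not_memLocalIdeal hM hB hR
    (Subgroup.centralizer_le hRD hg0D) hg0.2.1
  exact ⟨e, isInducedBlock_of_isBrauerPairOf hM he⟩

end Bridge

section Grp

universe u
variable {G : Type u} [Group G] [Finite G] {p : ℕ} [Fact p.Prime]

/-- in a `p`-constrained group, `O_{p'}(C_G(R)) ≤ O_{p'}(G)` for every `p`-subgroup `R` -/
theorem pPrimeCore_centralizer_map_le (hcon : Cfsg.IsPConstrained p G) (R : Subgroup G)
    (hR : IsPGroup p R) :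
    (Cfsg.pPrimeCore p ↥(Subgroup.centralizer (R : Set G))).map
      (Subgroup.centralizer (R : Set G)).subtype ≤ Cfsg.pPrimeCore p G := by
  haveI hQn : (Cfsg.pCore p (G ⧸ Cfsg.pPrimeCore p G)).Normal :=
    Cfsg.Agent.Lib.Helper48.pCore_normal' p _
  apply Cfsg.Agent.S0661.core (Cfsg.pPrimeCore p G)
    (Cfsg.Agent.Lib.Helper48.pPrimeCore_coprime' p G)
    (Cfsg.pCore p (G ⧸ Cfsg.pPrimeCore p G)) (Cfsg.Agent.Lib.Helper48.pCore_isPGroup' p _)
    (Cfsg.Agent.Lib.Helper49.charp_quotient_of_isPConstrained hcon) R hR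
  · exact (Subgroup.map_subtype_le _).trans (Subgroup.centralizer_le_normalizer _)
  · intro g hg
    have hgC := Cfsg.Agent.Lib.Helper77.normalizer_le_normalizer_centralizer R hg
    apply Subgroup.mem_normalizer_fintype
    rintro _ ⟨x, hx, rfl⟩
    refine ⟨Cfsg.Agent.Lib.Helper77.conjAut _ g hgC x, ?_, rfl⟩
    have hchar := Cfsg.Agent.Lib.Helper22.pPrimeCore_map_equiv p
      (Cfsg.Agent.Lib.Helper77.conjAut (Subgroup.centralizer (R : Set G)) g hgC)
    rw [← hchar]
    exact ⟨x, hx, rfl⟩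
  · have h1 := Cfsg.Agent.Lib.Helper48.pPrimeCore_coprime' p
      ↥(Subgroup.centralizer (R : Set G))
    have h2 : Nat.card ((Cfsg.pPrimeCore p ↥(Subgroup.centralizer (R : Set G))).map
        (Subgroup.centralizer (R : Set G)).subtype) =
        Nat.card (Cfsg.pPrimeCore p ↥(Subgroup.centralizer (R : Set G))) :=
      Subgroup.card_map_of_injective (Subgroup.subtype_injective _)
    rw [h2]
    exact h1

/-- in a `p`-constrained group, `O_{p'}(C_G(R)) = C_{O_{p'}(G)}(R)` for every `p`-subgroup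
`R` -/
theorem pPrimeCore_centralizer_eq (hcon : Cfsg.IsPConstrained p G) (R : Subgroup G)
    (hR : IsPGroup p R) :
    Cfsg.pPrimeCore p ↥(Subgroup.centralizer (R : Set G)) =
      (Cfsg.pPrimeCore p G ⊓ Subgroup.centralizer (R : Set G)).subgroupOf
        (Subgroup.centralizer (R : Set G)) := by
  apply le_antisymm
  · intro x hx
    rw [Subgroup.mem_subgroupOf]
    exact ⟨pPrimeCore_centralizer_map_le hcon R hR ⟨x, hx, rfl⟩, x.2⟩
  · apply le_sSup
    refine ⟨?_, ?_⟩
    · rw [Subgroup.inf_subgroupOf_right]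
      exact Subgroup.Normal.subgroupOf inferInstance _
    · have h1 : Nat.card ((Cfsg.pPrimeCore p G ⊓ Subgroup.centralizer (R : Set G)).subgroupOf
          (Subgroup.centralizer (R : Set G))) =
          Nat.card (Cfsg.pPrimeCore p G ⊓ Subgroup.centralizer (R : Set G) : Subgroup G) :=
        Nat.card_congr (Subgroup.subgroupOfEquivOfLe inf_le_right).toEquiv
      rw [h1]
      exact Nat.Coprime.coprime_dvd_left (Subgroup.card_dvd_of_le inf_le_left)
        (Cfsg.Agent.Lib.Helper48.pPrimeCore_coprime' p G)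

end Grp

section Princ

universe u
variable {G : Type u} [Group G] [Fintype G] {p : ℕ} [Fact p.Prime] {M : Ideal Cfsg.AlgInt}

/-- **Characters under a block inducing the block over `θ`.**  `K` a normal `p'`-subgroup,
`θ` a `G`-invariant irreducible character of `K`, `B` a block containing a character over `θ`,
`R` a `p`-subgroup and `β` the irreducible character of `C_K(R)` such that all other
irreducible characters of `C_K(R)` occur in `θ` with multiplicity divisible by `p`.  Then every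
member of a block of `C_G(R)` inducing `B` lies over `β` only. -/
theorem over_unique_of_induced (hM : Cfsg.IsPModular p M)
    (K : Subgroup G) [hK : K.Normal] [Fintype K] (hpK : ¬ p ∣ Nat.card K)
    (θ : Cfsg.IrrCharacter K) (hconj : ∀ g : G, conjIrr K θ g = θ)
    (B : Set (Cfsg.IrrCharacter G))
    (hBθ : ∃ χ ∈ B, Cfsg.classInner (fun k : K => (χ : G → ℂ) k) (θ : K → ℂ) ≠ 0)
    (R : Subgroup G)
    [Fintype ↥(Subgroup.centralizer (R : Set G))]
    [Fintype ↥(K ⊓ Subgroup.centralizer (R : Set G) : Subgroup G)]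
    [Fintype ↥((K ⊓ Subgroup.centralizer (R : Set G)).subgroupOf
      (Subgroup.centralizer (R : Set G)))]
    [hN'n : ((K ⊓ Subgroup.centralizer (R : Set G)).subgroupOf
      (Subgroup.centralizer (R : Set G))).Normal]
    (β : Cfsg.IrrCharacter ↥(K ⊓ Subgroup.centralizer (R : Set G) : Subgroup G))
    (hβ : ∀ β₁ : Cfsg.IrrCharacter ↥(K ⊓ Subgroup.centralizer (R : Set G) : Subgroup G),
      β₁ ≠ β → ∃ m : ℕ, Cfsg.classInner
        (fun c : ↥(K ⊓ Subgroup.centralizer (R : Set G) : Subgroup G) =>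
          (θ : K → ℂ) (Subgroup.inclusion inf_le_left c))
        (β₁ : ↥(K ⊓ Subgroup.centralizer (R : Set G) : Subgroup G) → ℂ) = (m : ℂ) ∧ p ∣ m)
    (f : Set (Cfsg.IrrCharacter ↥(Subgroup.centralizer (R : Set G))))
    (hf : Cfsg.IsInducedBlock M (Subgroup.centralizer (R : Set G)) f B)
    (ξ : Cfsg.IrrCharacter ↥(Subgroup.centralizer (R : Set G))) (hξ : ξ ∈ f)
    (φ : Cfsg.IrrCharacter ↥((K ⊓ Subgroup.centralizer (R : Set G)).subgroupOf
      (Subgroup.centralizer (R : Set G))))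
    (hφ : Cfsg.classInner
      (fun n : ↥((K ⊓ Subgroup.centralizer (R : Set G)).subgroupOf
        (Subgroup.centralizer (R : Set G))) =>
          (ξ : ↥(Subgroup.centralizer (R : Set G)) → ℂ) n)
      (φ : ↥((K ⊓ Subgroup.centralizer (R : Set G)).subgroupOf
        (Subgroup.centralizer (R : Set G))) → ℂ) ≠ 0) :
    φ = Cfsg.Agent.Lib.Helper77.mapIrr
      (Subgroup.subgroupOfEquivOfLe
        (inf_le_right : K ⊓ Subgroup.centralizer (R : Set G) ≤
          Subgroup.centralizer (R : Set G))).symm β := by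
  classical
  have hMp := isPrime_of_isPModular hM
  have hp : p.Prime := Fact.out
  by_contra hne
  obtain ⟨e, hedef⟩ : ∃ e : ↥((K ⊓ Subgroup.centralizer (R : Set G)).subgroupOf
      (Subgroup.centralizer (R : Set G))) ≃*
      ↥(K ⊓ Subgroup.centralizer (R : Set G) : Subgroup G),
      e = Subgroup.subgroupOfEquivOfLe
        (inf_le_right : K ⊓ Subgroup.centralizer (R : Set G) ≤
          Subgroup.centralizer (R : Set G)) := ⟨_, rfl⟩
  rw [← hedef] at hne
  have hecoe : ∀ n : ↥((K ⊓ Subgroup.centralizer (R : Set G)).subgroupOf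
      (Subgroup.centralizer (R : Set G))),
      ((e n : ↥(K ⊓ Subgroup.centralizer (R : Set G) : Subgroup G)) : G) =
        ((n : ↥(Subgroup.centralizer (R : Set G))) : G) := by
    intro n
    rw [hedef]
    rfl
  have hne' : Cfsg.Agent.Lib.Helper77.mapIrr e φ ≠ β := by
    intro h
    apply hne
    rw [← h, Cfsg.Agent.Lib.Helper77.mapIrr_symm_mapIrr]
  obtain ⟨m, hm, hpm⟩ := hβ (Cfsg.Agent.Lib.Helper77.mapIrr e φ) hne'
  -- the restriction of `θ` to `N'`
  have hmemK : ∀ n : ↥((K ⊓ Subgroup.centralizer (R : Set G)).subgroupOf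
      (Subgroup.centralizer (R : Set G))),
      ((n : ↥(Subgroup.centralizer (R : Set G))) : G) ∈ K :=
    fun n => (Subgroup.mem_subgroupOf.mp n.2).1
  have hinner : Cfsg.classInner
      (fun n : ↥((K ⊓ Subgroup.centralizer (R : Set G)).subgroupOf
        (Subgroup.centralizer (R : Set G))) =>
        (θ : K → ℂ) ⟨((n : ↥(Subgroup.centralizer (R : Set G))) : G), hmemK n⟩)
      (φ : ↥((K ⊓ Subgroup.centralizer (R : Set G)).subgroupOf
        (Subgroup.centralizer (R : Set G))) → ℂ) = (m : ℂ) := by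
    rw [← hm, ← Cfsg.Agent.Lib.Helper3.KnorrTr.classInner_comp_equiv e]
    congr 1
    · funext n
      exact congrArg (θ : K → ℂ) (Subtype.ext (hecoe n).symm)
    · funext n
      exact (Cfsg.Agent.Lib.Helper77.mapIrr_apply_apply e φ n).symm
  have hcardN : (Nat.card ↥((K ⊓ Subgroup.centralizer (R : Set G)).subgroupOf
      (Subgroup.centralizer (R : Set G))) : ℂ) ≠ 0 := by
    exact_mod_cast Nat.card_pos.ne'
  have hsum : ∑ n : ↥((K ⊓ Subgroup.centralizer (R : Set G)).subgroupOf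
      (Subgroup.centralizer (R : Set G))),
      (φ : ↥((K ⊓ Subgroup.centralizer (R : Set G)).subgroupOf
        (Subgroup.centralizer (R : Set G))) → ℂ) n *
      (starRingEnd ℂ) ((θ : K → ℂ)
        ⟨((n : ↥(Subgroup.centralizer (R : Set G))) : G), hmemK n⟩) =
      (Nat.card ↥((K ⊓ Subgroup.centralizer (R : Set G)).subgroupOf
        (Subgroup.centralizer (R : Set G))) : ℂ) * (m : ℂ) := by
    have h1 := Cfsg.Agent.Lib.Helper75.classInner_conj_symm
      (fun n : ↥((K ⊓ Subgroup.centralizer (R : Set G)).subgroupOf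
        (Subgroup.centralizer (R : Set G))) =>
        (θ : K → ℂ) ⟨((n : ↥(Subgroup.centralizer (R : Set G))) : G), hmemK n⟩)
      (φ : ↥((K ⊓ Subgroup.centralizer (R : Set G)).subgroupOf
        (Subgroup.centralizer (R : Set G))) → ℂ)
    rw [hinner, Complex.conj_natCast] at h1
    unfold Cfsg.classInner at h1
    rw [← h1, ← mul_assoc, mul_inv_cancel₀ hcardN, one_mul]
  -- the central element
  obtain ⟨χ, hχB, hχθ⟩ := hBθ
  have hS : ∀ θ' ∈ ({θ} : Finset (Cfsg.IrrCharacter K)), ∀ g : G,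
      conjIrr K θ' g ∈ ({θ} : Finset (Cfsg.IrrCharacter K)) := by
    intro θ' hθ' g
    rw [Finset.mem_singleton] at hθ' ⊢
    rw [hθ', hconj g]
  have hRa : IsRClass M (normalIdem K ({θ} : Finset (Cfsg.IrrCharacter K))) :=
    isRClass_normalIdem_of_coprime K hM hpK {θ} hS
  have key1 := omega_resFun_sub hMp (Subgroup.centralizer (R : Set G))
    (ξ : ↥(Subgroup.centralizer (R : Set G)) → ℂ) χ (hf.2.2 ξ hξ χ hχB) hRa
  rw [omega_normalIdem_eq_one K {θ} hS χ ⟨θ, Finset.mem_singleton_self θ, hχθ⟩] at key1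
  have hα : Cfsg.IsClassFunction ↥(Subgroup.centralizer (R : Set G))
      (resFun (Subgroup.centralizer (R : Set G))
        (normalIdem K ({θ} : Finset (Cfsg.IrrCharacter K)))) :=
    (isRClass_resFun (Subgroup.centralizer (R : Set G)) hRa).1
  have hα0 : ∀ x : ↥(Subgroup.centralizer (R : Set G)),
      x ∉ (K ⊓ Subgroup.centralizer (R : Set G)).subgroupOf
        (Subgroup.centralizer (R : Set G)) →
      resFun (Subgroup.centralizer (R : Set G))
        (normalIdem K ({θ} : Finset (Cfsg.IrrCharacter K))) x = 0 := by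
    intro x hx
    unfold resFun normalIdem
    apply Cfsg.Agent.Lib.Helper3.extendByZero_of_not_mem K
    intro hxK
    apply hx
    rw [Subgroup.mem_subgroupOf]
    exact ⟨hxK, x.2⟩
  rw [Cfsg.Agent.Lib.Helper3.KnorrTr.omega_eq_of_over
    ((K ⊓ Subgroup.centralizer (R : Set G)).subgroupOf (Subgroup.centralizer (R : Set G)))
    hφ hα hα0] at key1
  have hθ1 := (Cfsg.Agent.Lib.Helper79.irr_charDegree θ.2).1
  have hφ1 := (Cfsg.Agent.Lib.Helper79.irr_charDegree φ.2).1
  have hφpos := (Cfsg.Agent.Lib.Helper79.irr_charDegree φ.2).2.1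
  have hφdvd := (Cfsg.Agent.Lib.Helper79.irr_charDegree φ.2).2.2
  have hcardK : (Nat.card K : ℂ) ≠ 0 := by
    exact_mod_cast Nat.card_pos.ne'
  have hφ0 : ((Cfsg.charDegree (φ : ↥((K ⊓ Subgroup.centralizer (R : Set G)).subgroupOf
      (Subgroup.centralizer (R : Set G))) → ℂ) : ℕ) : ℂ) ≠ 0 := by
    exact_mod_cast hφpos.ne'
  have hval : omega (φ : ↥((K ⊓ Subgroup.centralizer (R : Set G)).subgroupOf
        (Subgroup.centralizer (R : Set G))) → ℂ)
      (resFun ((K ⊓ Subgroup.centralizer (R : Set G)).subgroupOf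
        (Subgroup.centralizer (R : Set G)))
        (resFun (Subgroup.centralizer (R : Set G))
          (normalIdem K ({θ} : Finset (Cfsg.IrrCharacter K))))) =
      ((Cfsg.charDegree (θ : K → ℂ) *
        Nat.card ↥((K ⊓ Subgroup.centralizer (R : Set G)).subgroupOf
          (Subgroup.centralizer (R : Set G))) * m : ℕ) : ℂ) /
      ((Nat.card K * Cfsg.charDegree (φ : ↥((K ⊓ Subgroup.centralizer (R : Set G)).subgroupOf
        (Subgroup.centralizer (R : Set G))) → ℂ) : ℕ) : ℂ) := by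
    unfold omega
    have hterm : ∀ n : ↥((K ⊓ Subgroup.centralizer (R : Set G)).subgroupOf
        (Subgroup.centralizer (R : Set G))),
        resFun ((K ⊓ Subgroup.centralizer (R : Set G)).subgroupOf
          (Subgroup.centralizer (R : Set G)))
          (resFun (Subgroup.centralizer (R : Set G))
            (normalIdem K ({θ} : Finset (Cfsg.IrrCharacter K)))) n *
          (φ : ↥((K ⊓ Subgroup.centralizer (R : Set G)).subgroupOf
            (Subgroup.centralizer (R : Set G))) → ℂ) n /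
          (φ : ↥((K ⊓ Subgroup.centralizer (R : Set G)).subgroupOf
            (Subgroup.centralizer (R : Set G))) → ℂ) 1 =
        ((θ : K → ℂ) 1 / ((Nat.card K : ℂ) *
          (φ : ↥((K ⊓ Subgroup.centralizer (R : Set G)).subgroupOf
            (Subgroup.centralizer (R : Set G))) → ℂ) 1)) *
        ((φ : ↥((K ⊓ Subgroup.centralizer (R : Set G)).subgroupOf
          (Subgroup.centralizer (R : Set G))) → ℂ) n *
        (starRingEnd ℂ) ((θ : K → ℂ)
          ⟨((n : ↥(Subgroup.centralizer (R : Set G))) : G), hmemK n⟩)) := by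
      intro n
      have e1 : resFun ((K ⊓ Subgroup.centralizer (R : Set G)).subgroupOf
          (Subgroup.centralizer (R : Set G)))
          (resFun (Subgroup.centralizer (R : Set G))
            (normalIdem K ({θ} : Finset (Cfsg.IrrCharacter K)))) n =
          (θ : K → ℂ) 1 * (starRingEnd ℂ) ((θ : K → ℂ)
            ⟨((n : ↥(Subgroup.centralizer (R : Set G))) : G), hmemK n⟩) /
            (Nat.card K : ℂ) := by
        show normalIdem K ({θ} : Finset (Cfsg.IrrCharacter K))
          ((n : ↥(Subgroup.centralizer (R : Set G))) : G) = _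
        unfold normalIdem
        rw [Cfsg.Agent.Lib.Helper3.extendByZero_of_mem K _ (hmemK n), Finset.sum_singleton]
        rfl
      rw [e1]
      rw [hφ1]
      field_simp
    rw [Finset.sum_congr rfl (fun n _ => hterm n), ← Finset.mul_sum, hsum, hθ1, hφ1]
    push_cast
    field_simp
  rw [hval] at key1
  have hdenom : ¬ p ∣ Nat.card K *
      Cfsg.charDegree (φ : ↥((K ⊓ Subgroup.centralizer (R : Set G)).subgroupOf
        (Subgroup.centralizer (R : Set G))) → ℂ) := by
    intro hdvd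
    rcases hp.dvd_mul.mp hdvd with h | h
    · exact hpK h
    · apply hpK
      have h1 : Nat.card ((K ⊓ Subgroup.centralizer (R : Set G)).subgroupOf
          (Subgroup.centralizer (R : Set G))) =
          Nat.card (K ⊓ Subgroup.centralizer (R : Set G) : Subgroup G) :=
        Nat.card_congr (Subgroup.subgroupOfEquivOfLe inf_le_right).toEquiv
      rw [h1] at hφdvd
      exact dvd_trans h (dvd_trans hφdvd (Subgroup.card_dvd_of_le inf_le_left))
  have hmem := Cfsg.Agent.Lib.Helper78.memLocalIdeal_natCast_div hM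
    (Dvd.dvd.mul_left hpm (Cfsg.charDegree (θ : K → ℂ) *
      Nat.card ↥((K ⊓ Subgroup.centralizer (R : Set G)).subgroupOf
        (Subgroup.centralizer (R : Set G))))) hdenom
  have h1 := memLocalIdeal_sub hMp hmem key1
  rw [sub_sub_cancel] at h1
  exact not_memLocalIdeal_one hMp h1

/-- **Principal type.**  In a `p`-constrained group `G`, the block `B` of the characters over
a `G`-invariant irreducible character `θ` of `O_{p'}(G)` is induced from exactly one block of
`C_G(R)`, for every `p`-subgroup `R` (Knörr's theorem is a hypothesis). -/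
theorem princ_type (p : ℕ) [Fact p.Prime] (M : Ideal Cfsg.AlgInt) (hM : Cfsg.IsPModular p M)
    (hcon : Cfsg.IsPConstrained p G) (θ : Cfsg.IrrCharacter ↥(Cfsg.pPrimeCore p G))
    [Fintype ↥(Cfsg.pPrimeCore p G)]
    (hconj : ∀ g : G, conjIrr (Cfsg.pPrimeCore p G) θ g = θ)
    (B : Set (Cfsg.IrrCharacter G)) (hB : Cfsg.IsPBlock M B)
    (hBθ : ∃ χ ∈ B, Cfsg.classInner (fun k : ↥(Cfsg.pPrimeCore p G) => (χ : G → ℂ) k)
      (θ : ↥(Cfsg.pPrimeCore p G) → ℂ) ≠ 0)
    (hBdef : ∀ S : Sylow p G, Cfsg.IsDefectGroup p M B (S : Subgroup G))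
    (hKn : ∀ (X : Type u) [Group X] [Fintype X] (K : Subgroup X) [K.Normal] [Fintype K]
      (b : Set (Cfsg.IrrCharacter K)), Cfsg.IsPBlock M b → ∀ (Q : Subgroup X), Q ≤ K →
      Cfsg.IsDefectGroup p M b (Q.subgroupOf K) → ∀ (B : Set (Cfsg.IrrCharacter X)),
      Cfsg.IsPBlock M B →
      (∃ χ ∈ B, ∃ ψ ∈ b, Cfsg.classInner (fun k : K => (χ : X → ℂ) k) (ψ : K → ℂ) ≠ 0) →
      ∃ P : Subgroup X, Cfsg.IsDefectGroup p M B P ∧ P ⊓ K = Q)
    (R : Subgroup G) (hR : IsPGroup p R) :
    ∃! f : Set (Cfsg.IrrCharacter ↥(Subgroup.centralizer (R : Set G))),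
      Cfsg.IsInducedBlock M (Subgroup.centralizer (R : Set G)) f B := by
  classical
  have hMp := isPrime_of_isPModular hM
  have hp : p.Prime := Fact.out
  haveI : Fintype ↥(Subgroup.centralizer (R : Set G)) := Fintype.ofFinite _
  haveI : Fintype ↥(Cfsg.pPrimeCore p G ⊓ Subgroup.centralizer (R : Set G) : Subgroup G) :=
    Fintype.ofFinite _
  haveI : Fintype ↥((Cfsg.pPrimeCore p G ⊓ Subgroup.centralizer (R : Set G)).subgroupOf
      (Subgroup.centralizer (R : Set G))) := Fintype.ofFinite _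
  have hN'def := pPrimeCore_centralizer_eq hcon R hR
  haveI hN'n : ((Cfsg.pPrimeCore p G ⊓ Subgroup.centralizer (R : Set G)).subgroupOf
      (Subgroup.centralizer (R : Set G))).Normal := by
    rw [← hN'def]
    infer_instance
  have hcopK := Cfsg.Agent.Lib.Helper63.card_pPrimeCore_coprime' p G
  have hpK : ¬ p ∣ Nat.card ↥(Cfsg.pPrimeCore p G) :=
    (Nat.Prime.coprime_iff_not_dvd hp).mp hcopK.symm
  -- existence
  obtain ⟨S, hRS⟩ := hR.exists_le_sylow
  obtain ⟨f₀, hf₀⟩ := exists_induced_centralizer hM hB hR (hBdef S) hRS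
  -- Glauberman
  have hcop : (Nat.card ↥(Cfsg.pPrimeCore p G)).Coprime (Nat.card R) := by
    obtain ⟨n, hn⟩ := IsPGroup.iff_card.mp hR
    rw [hn]
    exact Nat.Coprime.pow_right n hcopK
  have hKnorm : (Cfsg.pPrimeCore p G).Normal := inferInstance
  have gl := Cfsg.Agent.Lib.Helper75.glauberman_pgroup (Cfsg.pPrimeCore p G) R
    (fun s _ g hg => hKnorm.conj_mem g hg s) hcop p hp hR
    (Cfsg.pPrimeCore p G ⊓ Subgroup.centralizer (R : Set G)) rfl inf_le_left
  have hInv : Cfsg.Agent.Lib.Helper75.InvS (Cfsg.pPrimeCore p G) R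
      (θ : ↥(Cfsg.pPrimeCore p G) → ℂ) := by
    intro s _ g g' hg'
    have h1 := congrArg Subtype.val (hconj s)
    have hmem : s⁻¹ * (g' : G) * s ∈ Cfsg.pPrimeCore p G := by
      rw [hg']
      have e : s⁻¹ * (s * (g : G) * s⁻¹) * s = (g : G) := by group
      rw [e]
      exact g.2
    have h2 := conjIrr_apply (Cfsg.pPrimeCore p G) θ s g' hmem
    rw [hconj s] at h2
    rw [h2]
    refine congrArg (θ : ↥(Cfsg.pPrimeCore p G) → ℂ) (Subtype.ext ?_)
    show s⁻¹ * (g' : G) * s = (g : G)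
    rw [hg']
    group
  obtain ⟨β, ε, hβirr, hε, hβ⟩ := gl.1 (θ : ↥(Cfsg.pPrimeCore p G) → ℂ) θ.2 hInv
  have hβ' : ∀ β₁ : Cfsg.IrrCharacter
      ↥(Cfsg.pPrimeCore p G ⊓ Subgroup.centralizer (R : Set G) : Subgroup G),
      β₁ ≠ ⟨β, hβirr⟩ → ∃ m : ℕ, Cfsg.classInner
        (fun c : ↥(Cfsg.pPrimeCore p G ⊓ Subgroup.centralizer (R : Set G) : Subgroup G) =>
          (θ : ↥(Cfsg.pPrimeCore p G) → ℂ) (Subgroup.inclusion inf_le_left c))
        (β₁ : ↥(Cfsg.pPrimeCore p G ⊓ Subgroup.centralizer (R : Set G) : Subgroup G) → ℂ) =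
          (m : ℂ) ∧ p ∣ m := by
    intro β₁ hne
    obtain ⟨m, hm, -, hm2⟩ := hβ (β₁ : _ → ℂ) β₁.2
    refine ⟨m, hm, ?_⟩
    have h1 : (β₁ : ↥(Cfsg.pPrimeCore p G ⊓ Subgroup.centralizer (R : Set G) : Subgroup G) → ℂ)
        ≠ β := fun h => hne (Subtype.ext h)
    exact Int.natCast_dvd_natCast.mp (hm2 h1)
  have hU1 : ∀ f : Set (Cfsg.IrrCharacter ↥(Subgroup.centralizer (R : Set G))),
      Cfsg.IsInducedBlock M (Subgroup.centralizer (R : Set G)) f B → ∀ ξ ∈ f,
      ∀ φ : Cfsg.IrrCharacter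
        ↥((Cfsg.pPrimeCore p G ⊓ Subgroup.centralizer (R : Set G)).subgroupOf
          (Subgroup.centralizer (R : Set G))),
      Cfsg.classInner
        (fun n : ↥((Cfsg.pPrimeCore p G ⊓ Subgroup.centralizer (R : Set G)).subgroupOf
          (Subgroup.centralizer (R : Set G))) =>
            (ξ : ↥(Subgroup.centralizer (R : Set G)) → ℂ) n)
        (φ : ↥((Cfsg.pPrimeCore p G ⊓ Subgroup.centralizer (R : Set G)).subgroupOf
          (Subgroup.centralizer (R : Set G))) → ℂ) ≠ 0 →
      φ = Cfsg.Agent.Lib.Helper77.mapIrr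
        (Subgroup.subgroupOfEquivOfLe
          (inf_le_right : Cfsg.pPrimeCore p G ⊓ Subgroup.centralizer (R : Set G) ≤
            Subgroup.centralizer (R : Set G))).symm ⟨β, hβirr⟩ :=
    fun f hf ξ hξ φ hφ => over_unique_of_induced hM (Cfsg.pPrimeCore p G) hpK θ hconj B hBθ R
      ⟨β, hβirr⟩ hβ' f hf ξ hξ φ hφ
  obtain ⟨θs, hθs⟩ : ∃ θs : Cfsg.IrrCharacter
      ↥((Cfsg.pPrimeCore p G ⊓ Subgroup.centralizer (R : Set G)).subgroupOf
        (Subgroup.centralizer (R : Set G))),
      θs = Cfsg.Agent.Lib.Helper77.mapIrr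
        (Subgroup.subgroupOfEquivOfLe
          (inf_le_right : Cfsg.pPrimeCore p G ⊓ Subgroup.centralizer (R : Set G) ≤
            Subgroup.centralizer (R : Set G))).symm ⟨β, hβirr⟩ := ⟨_, rfl⟩
  rw [← hθs] at hU1
  -- `θs` is invariant
  obtain ⟨ξ₀, hξ₀⟩ := IsPBlock.nonempty hMp hf₀.1
  obtain ⟨φ₀, hφ₀⟩ := exists_irr_under
    ((Cfsg.pPrimeCore p G ⊓ Subgroup.centralizer (R : Set G)).subgroupOf
      (Subgroup.centralizer (R : Set G))) ξ₀
  have hφ₀eq := hU1 f₀ hf₀ ξ₀ hξ₀ φ₀ hφ₀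
  rw [hφ₀eq] at hφ₀
  have hconjs : ∀ c : ↥(Subgroup.centralizer (R : Set G)),
      conjIrr ((Cfsg.pPrimeCore p G ⊓ Subgroup.centralizer (R : Set G)).subgroupOf
        (Subgroup.centralizer (R : Set G))) θs c = θs := by
    intro c
    apply hU1 f₀ hf₀ ξ₀ hξ₀
    have h1 := Cfsg.Agent.Lib.Helper75.classInner_res_conjChar
      ((Cfsg.pPrimeCore p G ⊓ Subgroup.centralizer (R : Set G)).subgroupOf
        (Subgroup.centralizer (R : Set G)))
      (fun g x => irrCharacter_conj_eq ξ₀ x g)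
      (θs : ↥((Cfsg.pPrimeCore p G ⊓ Subgroup.centralizer (R : Set G)).subgroupOf
        (Subgroup.centralizer (R : Set G))) → ℂ) c
    show Cfsg.classInner
      (fun n : ↥((Cfsg.pPrimeCore p G ⊓ Subgroup.centralizer (R : Set G)).subgroupOf
        (Subgroup.centralizer (R : Set G))) =>
          (ξ₀ : ↥(Subgroup.centralizer (R : Set G)) → ℂ) n)
      (Cfsg.Agent.Lib.Helper75.conjChar
        ((Cfsg.pPrimeCore p G ⊓ Subgroup.centralizer (R : Set G)).subgroupOf
          (Subgroup.centralizer (R : Set G)))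
        (θs : ↥((Cfsg.pPrimeCore p G ⊓ Subgroup.centralizer (R : Set G)).subgroupOf
          (Subgroup.centralizer (R : Set G))) → ℂ) c) ≠ 0
    rw [h1]
    exact hφ₀
  -- Fong's theorem in the centralizer
  have hconC : Cfsg.IsPConstrained p ↥(Subgroup.centralizer (R : Set G)) :=
    (Cfsg.Agent.S0631.result hcon R hR).2
  obtain ⟨BC, hBC, hBCmem, -, -⟩ := fong_con p M hM hconC
    ((Cfsg.pPrimeCore p G ⊓ Subgroup.centralizer (R : Set G)).subgroupOf
      (Subgroup.centralizer (R : Set G))) hN'def.symm θs hconjs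
    (fun K' _ _ b hb Q hQK hQ B' hB' hcov =>
      hKn ↥(Subgroup.centralizer (R : Set G)) K' b hb Q hQK hQ B' hB' hcov)
  have huniq : ∀ f : Set (Cfsg.IrrCharacter ↥(Subgroup.centralizer (R : Set G))),
      Cfsg.IsInducedBlock M (Subgroup.centralizer (R : Set G)) f B → f = BC := by
    intro f hf
    obtain ⟨ξ, hξ⟩ := IsPBlock.nonempty hMp hf.1
    obtain ⟨φ, hφ⟩ := exists_irr_under
      ((Cfsg.pPrimeCore p G ⊓ Subgroup.centralizer (R : Set G)).subgroupOf
        (Subgroup.centralizer (R : Set G))) ξ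
    have h1 := hU1 f hf ξ hξ φ hφ
    rw [h1] at hφ
    have hξBC : ξ ∈ BC := (hBCmem ξ).mpr hφ
    rw [IsPBlock.eq_blockOf hMp hf.1 hξ, IsPBlock.eq_blockOf hMp hBC hξBC]
  exact ⟨f₀, hf₀, fun f hf => by rw [huniq f hf, huniq f₀ hf₀]⟩

/-- **Blocks of `p`-constrained groups over an invariant character of `O_{p'}(G)`** (statement
S4642, with Knörr's theorem as a hypothesis). -/
theorem pcon_princ (p : ℕ) [Fact p.Prime] (M : Ideal Cfsg.AlgInt) (hM : Cfsg.IsPModular p M)
    (K : Subgroup G) (hK : K = Cfsg.pPrimeCore p G) [Fintype K] (L : Subgroup G)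
    (hL : L = Cfsg.pPrimePCore p G) (Q : Subgroup G) (hQL : Q ≤ L) (hQp : IsPGroup p Q)
    (hQS : ¬ p ∣ Q.relIndex L) (hCQ : Subgroup.centralizer (Q : Set G) ≤ L)
    (θ : Cfsg.IrrCharacter K)
    (hθ : ∀ g : G, Cfsg.IsConjCharOf K g (θ : K → ℂ) (θ : K → ℂ))
    (B : Set (Cfsg.IrrCharacter G))
    (hBdef : ∀ χ : Cfsg.IrrCharacter G,
      χ ∈ B ↔ Cfsg.classInner (fun k : K => (χ : G → ℂ) k) (θ : K → ℂ) ≠ 0)
    (hKn : ∀ (X : Type u) [Group X] [Fintype X] (K : Subgroup X) [K.Normal] [Fintype K]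
      (b : Set (Cfsg.IrrCharacter K)), Cfsg.IsPBlock M b → ∀ (Q : Subgroup X), Q ≤ K →
      Cfsg.IsDefectGroup p M b (Q.subgroupOf K) → ∀ (B : Set (Cfsg.IrrCharacter X)),
      Cfsg.IsPBlock M B →
      (∃ χ ∈ B, ∃ ψ ∈ b, Cfsg.classInner (fun k : K => (χ : X → ℂ) k) (ψ : K → ℂ) ≠ 0) →
      ∃ P : Subgroup X, Cfsg.IsDefectGroup p M B P ∧ P ⊓ K = Q) :
    Cfsg.IsPBlock M B ∧ (∀ S : Sylow p G, Cfsg.IsDefectGroup p M B S) ∧
      ∀ R : Subgroup G, IsPGroup p R →
        ∃! f : Set (Cfsg.IrrCharacter (Subgroup.centralizer (R : Set G))),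
          Cfsg.IsInducedBlock M (Subgroup.centralizer (R : Set G)) f B := by
  classical
  subst hK
  subst hL
  have hMp := isPrime_of_isPModular hM
  have hp : p.Prime := Fact.out
  -- `G` is `p`-constrained
  have hcon : Cfsg.IsPConstrained p G := by
    intro P x hx
    obtain ⟨l, hl⟩ := MulAction.exists_smul_eq ↥(Cfsg.pPrimePCore p G)
      ((hQp.comap_subtype (K := Cfsg.pPrimePCore p G)).toSylow hQS) P
    have hc : (l : G)⁻¹ * x * (l : G) ∈ Subgroup.centralizer (Q : Set G) := by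
      rw [Subgroup.mem_centralizer_iff]
      intro q hq
      have hqP : (l : G) * q * (l : G)⁻¹ ∈
          ((P : Subgroup ↥(Cfsg.pPrimePCore p G)).map (Cfsg.pPrimePCore p G).subtype :
            Subgroup G) := by
        refine ⟨l * ⟨q, hQL hq⟩ * l⁻¹, ?_, rfl⟩
        rw [SetLike.mem_coe, ← hl, Sylow.coe_subgroup_smul,
          Cfsg.Agent.Lib.Helper1.mem_conj_smul]
        have e : l⁻¹ * (l * ⟨q, hQL hq⟩ * l⁻¹) * l =
            (⟨q, hQL hq⟩ : ↥(Cfsg.pPrimePCore p G)) := by group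
        rw [e]
        exact hq
      have h4 := (Subgroup.mem_centralizer_iff.mp hx) _ hqP
      calc q * ((l : G)⁻¹ * x * (l : G))
          = (l : G)⁻¹ * ((l : G) * q * (l : G)⁻¹ * x) * (l : G) := by group
        _ = (l : G)⁻¹ * (x * ((l : G) * q * (l : G)⁻¹)) * (l : G) := by rw [h4]
        _ = (l : G)⁻¹ * x * (l : G) * q := by group
    have h5 := hCQ hc
    have e : x = (l : G) * ((l : G)⁻¹ * x * (l : G)) * (l : G)⁻¹ := by group
    rw [e]
    exact Subgroup.mul_mem _ (Subgroup.mul_mem _ l.2 h5) (Subgroup.inv_mem _ l.2)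
  have hKnorm : (Cfsg.pPrimeCore p G).Normal := inferInstance
  have hconj : ∀ g : G, conjIrr (Cfsg.pPrimeCore p G) θ g = θ := by
    intro g
    apply Subtype.ext
    funext n
    have hmem : g⁻¹ * (n : G) * g ∈ Cfsg.pPrimeCore p G := by
      have := hKnorm.conj_mem n n.2 g⁻¹
      simpa using this
    rw [conjIrr_apply _ θ g n hmem]
    exact (hθ g ⟨g⁻¹ * (n : G) * g, hmem⟩ n (by
      show (n : G) = g * (g⁻¹ * (n : G) * g) * g⁻¹
      group)).symm
  obtain ⟨B', hB', hB'mem, hB'syl, -⟩ := fong_con p M hM hcon (Cfsg.pPrimeCore p G) rfl θ hconj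
    (fun K' _ _ b hb Q hQK hQ B hB hcov => hKn G K' b hb Q hQK hQ B hB hcov)
  have hBB' : B = B' := Set.ext fun χ => by rw [hBdef χ, hB'mem χ]
  rw [hBB']
  obtain ⟨χ₀, hχ₀⟩ := IsPBlock.nonempty hMp hB'
  exact ⟨hB', hB'syl, fun R hR => princ_type p M hM hcon θ hconj B' hB'
    ⟨χ₀, hχ₀, (hB'mem χ₀).mp hχ₀⟩ hB'syl hKn R hR⟩

end Princ

end Cfsg.Agent.Lib.Helper32
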