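import Mathlib
import Cfsg.Prelude.Def_Local
import Cfsg.Agent.Lib.Helper63.PLength
import Cfsg.Agent.Lib.Helper63.HallHigman
import Cfsg.Agent.Lib.Helper87.OmegaLemma
import Cfsg.Agent.Lib.Helper1.SZInternal
import Cfsg.Agent.Lib.Helper1.Tools
import Cfsg.Agent.Lib.Helper50.FrattiniRep
import Cfsg.Agent.Lib.Helper69.PSolvable

/-!
# The Gaschütz–Yen theorem: the case `O_{p'} = 1` (helper32)

* `gy_core`: let `H` be a finite `p`-soluble group, `p` odd, with `O_{p'}(H) = 1`, whose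
  automorphism group permutes the subgroups of order `p` transitively. Then `H / O_p(H)` is a
  `p'`-group.

The proof is elementary: by transitivity all elements of order `p` lie in `Z(O_p(H))`; if
`Z₀ = C_{Z(O_p(H))}(O_{p,p'}(H))` is non-trivial, then all elements of order `p` are centralized
by `O_{p,p'}(H)`, which forces `O_{p,p'}(H) = O_p(H)` and `H = O_p(H)`; otherwise the
Schur–Zassenhaus theorem and the Frattini argument give a `p`-element outside `O_p(H)` normalizing
a complement `N₁` of `O_p(H)` in `O_{p,p'}(H)`, and its power of order `p` lies in `Z₀ = 1`.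
-/

set_option autoImplicit false

namespace Cfsg.Agent.Lib.Helper32

open Pointwise

/-- A non-trivial `p`-element has a power of order `p`. -/
theorem exists_pow_ne_one_pow_eq_one {G : Type*} [Group G] {p : ℕ} (u : G) (k : ℕ) (hu1 : u ≠ 1)
    (huk : u ^ p ^ k = 1) : ∃ i : ℕ, u ^ i ≠ 1 ∧ (u ^ i) ^ p = 1 := by
  classical
  have hex : ∃ j, u ^ p ^ j = 1 := ⟨k, huk⟩
  obtain ⟨j, hj, hmin⟩ : ∃ j, u ^ p ^ j = 1 ∧ ∀ i < j, u ^ p ^ i ≠ 1 :=
    ⟨Nat.find hex, Nat.find_spec hex, fun i hi => Nat.find_min hex hi⟩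
  have hj0 : j ≠ 0 := by
    intro h
    rw [h, pow_zero, pow_one] at hj
    exact hu1 hj
  obtain ⟨j', rfl⟩ := Nat.exists_eq_succ_of_ne_zero hj0
  refine ⟨p ^ j', hmin j' (Nat.lt_succ_self j'), ?_⟩
  rw [← pow_mul, ← pow_succ]
  exact hj

/-- If the automorphism group is transitive on the subgroups of order `p`, an
automorphism-invariant subgroup containing a non-trivial `p`-element contains all elements of
order `p`. -/
theorem mem_of_pow_prime_eq_one_of_trans {H : Type*} [Group H] {p : ℕ} [Fact p.Prime]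
    (htrans : ∀ U V : Subgroup H, Nat.card U = p → Nat.card V = p →
      ∃ a : MulAut H, U.map a.toMonoidHom = V)
    (Z : Subgroup H) (hZ : ∀ (a : MulAut H), ∀ z ∈ Z, a z ∈ Z) (u : H) (huZ : u ∈ Z)
    (hu1 : u ≠ 1) (k : ℕ) (huk : u ^ p ^ k = 1) : ∀ g : H, g ^ p = 1 → g ∈ Z := by
  have hp : p.Prime := Fact.out
  obtain ⟨i, hi1, hip⟩ := exists_pow_ne_one_pow_eq_one u k hu1 huk
  have hiZ : u ^ i ∈ Z := Z.pow_mem huZ i
  intro g hg
  by_cases hg1 : g = 1
  · rw [hg1]; exact Z.one_mem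
  have ho1 : orderOf (u ^ i) = p := orderOf_eq_prime hip hi1
  have ho2 : orderOf g = p := orderOf_eq_prime hg hg1
  obtain ⟨a, ha⟩ := htrans (Subgroup.zpowers (u ^ i)) (Subgroup.zpowers g)
    (by rw [Nat.card_zpowers, ho1]) (by rw [Nat.card_zpowers, ho2])
  have hgm : g ∈ (Subgroup.zpowers (u ^ i)).map a.toMonoidHom := by
    rw [ha]; exact Subgroup.mem_zpowers g
  obtain ⟨w, hw, hwg⟩ := hgm
  rw [← hwg]
  exact hZ a w ((Subgroup.zpowers_le.2 hiZ) hw)

/-- A finite group of finite `p`-length with `O_{p'} = 1` and `O_p = 1` is trivial. -/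
theorem eq_one_of_cores_eq_bot {X : Type*} [Group X] [Finite X] {p : ℕ} [Fact p.Prime]
    (hl : ∃ k, Cfsg.PLengthLE p k X) (h0 : Cfsg.pPrimeCore p X = ⊥) (h1 : Cfsg.pCore p X = ⊥)
    (x : X) : x = 1 := by
  have hC := Cfsg.Agent.Lib.Helper63.centralizer_pCore_le h0 hl
  have h2 : x ∈ Subgroup.centralizer (Cfsg.pCore p X : Set X) := by
    rw [Subgroup.mem_centralizer_iff]
    intro r hr
    have hr' : r ∈ Cfsg.pCore p X := hr
    rw [h1, Subgroup.mem_bot] at hr'
    rw [hr', one_mul, mul_one]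
  have h3 := hC h2
  rw [h1, Subgroup.mem_bot] at h3
  exact h3

theorem gy_core {H : Type*} [Group H] [Finite H] {p : ℕ} [Fact p.Prime] (hp2 : p ≠ 2)
    (hsol : Cfsg.IsPSolvable p H) (h0 : Cfsg.pPrimeCore p H = ⊥)
    (htrans : ∀ U V : Subgroup H, Nat.card U = p → Nat.card V = p →
      ∃ a : MulAut H, U.map a.toMonoidHom = V) :
    (Nat.card (H ⧸ Cfsg.pCore p H)).Coprime p := by
  classical
  have hp : p.Prime := Fact.out
  have hl : ∃ k, Cfsg.PLengthLE p k H :=
    Cfsg.Agent.Lib.Helper63.exists_plengthLE_of_isPSolvable hsol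
  set R := Cfsg.pCore p H with hR
  have hRn : R.Normal := inferInstance
  have hRp : IsPGroup p R := Cfsg.Agent.Lib.Helper63.pCore_isPGroup' p H
  have hRchar : R.Characteristic := Cfsg.Agent.Lib.Helper63.pCore_characteristic' p H
  have hCR : Subgroup.centralizer (R : Set H) ≤ R :=
    Cfsg.Agent.Lib.Helper63.centralizer_pCore_le h0 hl
  have hRa : ∀ (a : MulAut H), ∀ z ∈ R, a z ∈ R := by
    intro a z hz
    have h1 : z ∈ R.comap a.toMonoidHom := by rw [hRchar.fixed a]; exact hz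
    exact h1
  -- the quotient `H ⧸ R`
  have hsolq : Cfsg.IsPSolvable p (H ⧸ R) :=
    Cfsg.Agent.Lib.Helper69.isPSolvable_of_surj p (QuotientGroup.mk' R)
      (QuotientGroup.mk'_surjective R) hsol
  have hlq : ∃ k, Cfsg.PLengthLE p k (H ⧸ R) :=
    Cfsg.Agent.Lib.Helper63.exists_plengthLE_of_isPSolvable hsolq
  have hqc : Cfsg.pCore p (H ⧸ R) = ⊥ := by
    rw [eq_bot_iff]
    have h1 : (Cfsg.pCore p (H ⧸ R)).comap (QuotientGroup.mk' R) ≤ Cfsg.pCore p H := by
      apply Cfsg.Agent.Lib.Helper63.le_pCore' (Subgroup.Normal.comap inferInstance _)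
      apply IsPGroup.comap_of_ker_isPGroup (Cfsg.Agent.Lib.Helper63.pCore_isPGroup' p _)
      rw [QuotientGroup.ker_mk']
      exact hRp
    intro y hy
    obtain ⟨x, rfl⟩ := QuotientGroup.mk'_surjective R y
    have h2 : x ∈ R := h1 hy
    rw [Subgroup.mem_bot]
    exact (QuotientGroup.eq_one_iff x).2 h2
  -- the centre of `R`
  set ZR : Subgroup H := R ⊓ Subgroup.centralizer (R : Set H) with hZR
  have hZRa : ∀ (a : MulAut H), ∀ z ∈ ZR, a z ∈ ZR := by
    intro a z hz
    obtain ⟨hz1, hz2⟩ := Subgroup.mem_inf.1 hz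
    refine Subgroup.mem_inf.2 ⟨hRa a z hz1, ?_⟩
    rw [Subgroup.mem_centralizer_iff]
    intro r hr
    have h1 : a.symm r ∈ R := hRa a.symm r hr
    have h2 := (Subgroup.mem_centralizer_iff.1 hz2) (a.symm r) h1
    have h3 := congrArg a h2
    simpa using h3
  -- `O_{p,p'}`
  set M : Subgroup H := (Cfsg.pPrimeCore p (H ⧸ R)).comap (QuotientGroup.mk' R) with hM
  have hMn : M.Normal := Subgroup.Normal.comap inferInstance _
  have hRM : R ≤ M := by
    intro r hr
    show QuotientGroup.mk' R r ∈ Cfsg.pPrimeCore p (H ⧸ R)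
    have h1 : QuotientGroup.mk' R r = 1 := (QuotientGroup.eq_one_iff r).2 hr
    rw [h1]
    exact Subgroup.one_mem _
  have hMa : ∀ (a : MulAut H), ∀ m ∈ M, a m ∈ M := by
    intro a m hm
    have hchar : (Cfsg.pPrimeCore p (H ⧸ R)).Characteristic :=
      Cfsg.Agent.Lib.Helper63.pPrimeCore_characteristic' p (H ⧸ R)
    have h1 : (QuotientGroup.mk' R m) ∈ (Cfsg.pPrimeCore p (H ⧸ R)).comap
        (Cfsg.Agent.Lib.Helper50.fr_autQuot R a).toMonoidHom := by
      rw [hchar.fixed]; exact hm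
    exact h1
  set Z₀ : Subgroup H := ZR ⊓ Subgroup.centralizer (M : Set H) with hZ₀
  have hZ₀a : ∀ (a : MulAut H), ∀ z ∈ Z₀, a z ∈ Z₀ := by
    intro a z hz
    obtain ⟨hz1, hz2⟩ := Subgroup.mem_inf.1 hz
    refine Subgroup.mem_inf.2 ⟨hZRa a z hz1, ?_⟩
    rw [Subgroup.mem_centralizer_iff]
    intro m hm
    have h1 : a.symm m ∈ M := hMa a.symm m hm
    have h2 := (Subgroup.mem_centralizer_iff.1 hz2) (a.symm m) h1
    have h3 := congrArg a h2
    simpa using h3
  have hZ₀R : Z₀ ≤ R := fun z hz => (Subgroup.mem_inf.1 (Subgroup.mem_inf.1 hz).1).1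
  by_cases hZ₀bot : Z₀ = ⊥
  swap
  · -- all elements of order `p` are centralized by `M`, so `M = R` and `H = R`
    obtain ⟨⟨u, huZ⟩, hu1⟩ := (Subgroup.ne_bot_iff_exists_ne_one).1 hZ₀bot
    have hu1' : u ≠ 1 := fun h => hu1 (Subtype.ext h)
    obtain ⟨k, hk⟩ := hRp ⟨u, hZ₀R huZ⟩
    have huk : u ^ p ^ k = 1 := congrArg Subtype.val hk
    have hE := mem_of_pow_prime_eq_one_of_trans htrans Z₀ hZ₀a u huZ hu1' k huk
    have hMp : IsPGroup p ↥M := by
      apply Cfsg.Agent.Lib.Helper87.isPGroup_of_prime_pow_trivial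
      intro q hq hqp g hg
      have hgq : (g : H) ^ q = 1 := by
        have := congrArg Subtype.val hg
        simpa using this
      have hβ : (MulAut.conjNormal (H := R) (g : H)) ^ q = 1 := by
        rw [← map_pow, hgq, map_one]
      have hcop : q.Coprime p := (Nat.coprime_primes hq hp).2 hqp
      have hfix := Cfsg.Agent.Lib.Helper87.aut_fix_of_fix_omega hRp hp2
        (MulAut.conjNormal (H := R) (g : H)) q hcop hβ ⊤ (fun x _ => Subgroup.mem_top _)
        (fun x _ hx => by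
          have hxp : (x : H) ^ p = 1 := by
            have := congrArg Subtype.val hx
            simpa using this
          have h1 := (Subgroup.mem_inf.1 (hE _ hxp)).2
          have h2 := (Subgroup.mem_centralizer_iff.1 h1) (g : H) g.2
          apply Subtype.ext
          show (g : H) * (x : H) * (g : H)⁻¹ = x
          rw [h2, mul_inv_cancel_right])
      have hgC : (g : H) ∈ Subgroup.centralizer (R : Set H) := by
        rw [Subgroup.mem_centralizer_iff]
        intro r hr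
        have h1 := congrArg Subtype.val (hfix ⟨r, hr⟩ (Subgroup.mem_top _))
        have h2 : (g : H) * r * (g : H)⁻¹ = r := h1
        calc r * (g : H) = ((g : H) * r * (g : H)⁻¹) * (g : H) := by rw [h2]
          _ = (g : H) * r := by group
      have hgR : (g : H) ∈ R := hCR hgC
      obtain ⟨j, hj⟩ := hRp ⟨(g : H), hgR⟩
      have hgj : (g : H) ^ p ^ j = 1 := congrArg Subtype.val hj
      have h3 : (g : H) ∈ (⊥ : Subgroup H) :=
        Cfsg.Agent.Lib.Helper87.mem_of_pow_mem_of_coprime ⊥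
          (by rw [hgq]; exact Subgroup.one_mem _) (by rw [hgj]; exact Subgroup.one_mem _)
          (Nat.Coprime.pow_right j hcop)
      exact Subtype.ext (Subgroup.mem_bot.1 h3)
    have hMR : M ≤ R := Cfsg.Agent.Lib.Helper63.le_pCore' hMn hMp
    have hq0 : Cfsg.pPrimeCore p (H ⧸ R) = ⊥ := by
      rw [eq_bot_iff]
      intro y hy
      obtain ⟨x, rfl⟩ := QuotientGroup.mk'_surjective R y
      have h2 : x ∈ R := hMR hy
      rw [Subgroup.mem_bot]
      exact (QuotientGroup.eq_one_iff x).2 h2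
    have hsub : Subsingleton (H ⧸ R) :=
      ⟨fun a b => by rw [eq_one_of_cores_eq_bot hlq hq0 hqc a, eq_one_of_cores_eq_bot hlq hq0 hqc b]⟩
    rw [Nat.card_of_subsingleton (1 : H ⧸ R)]
    exact Nat.coprime_one_left p
  -- now `Z₀ = 1`
  by_cases hR1 : R = ⊥
  · have hsub : Subsingleton (H ⧸ R) :=
      ⟨fun a b => by
        obtain ⟨a', rfl⟩ := QuotientGroup.mk_surjective a
        obtain ⟨b', rfl⟩ := QuotientGroup.mk_surjective b
        rw [eq_one_of_cores_eq_bot hl h0 hR1 a', eq_one_of_cores_eq_bot hl h0 hR1 b']⟩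
    rw [Nat.card_of_subsingleton (1 : H ⧸ R)]
    exact Nat.coprime_one_left p
  -- all elements of order `p` lie in the centre of `R`
  have hRnt : Nontrivial ↥R := (Subgroup.nontrivial_iff_ne_bot R).2 hR1
  haveI := hRp.center_nontrivial
  obtain ⟨zc, hzc1⟩ := exists_ne (1 : Subgroup.center ↥R)
  have hzZR : ((zc : ↥R) : H) ∈ ZR := by
    refine Subgroup.mem_inf.2 ⟨(zc : ↥R).2, ?_⟩
    rw [Subgroup.mem_centralizer_iff]
    intro r hr
    have h1 := Subgroup.mem_center_iff.1 zc.2 ⟨r, hr⟩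
    exact congrArg Subtype.val h1
  have hz1 : ((zc : ↥R) : H) ≠ 1 := by
    intro h
    apply hzc1
    apply Subtype.ext
    apply Subtype.ext
    exact h
  obtain ⟨kz, hkz⟩ := hRp (zc : ↥R)
  have hzk : ((zc : ↥R) : H) ^ p ^ kz = 1 := congrArg Subtype.val hkz
  have hE := mem_of_pow_prime_eq_one_of_trans htrans ZR hZRa _ hzZR hz1 kz hzk
  -- a complement of `R` in `M`
  have hcardq : R.relIndex M = Nat.card (Cfsg.pPrimeCore p (H ⧸ R)) := by
    have h1 := Subgroup.relIndex_comap (H := (⊥ : Subgroup (H ⧸ R))) (QuotientGroup.mk' R) M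
    rw [MonoidHom.comap_bot, QuotientGroup.ker_mk', Subgroup.relIndex_bot_left] at h1
    rw [h1, hM, Subgroup.map_comap_eq_self_of_surjective (QuotientGroup.mk'_surjective R)]
  have hcopq : (R.relIndex M).Coprime p := by
    rw [hcardq]
    exact Cfsg.Agent.Lib.Helper63.card_pPrimeCore_coprime' p (H ⧸ R)
  have hcopM : (Nat.card R).Coprime (R.relIndex M) := by
    obtain ⟨n, hn⟩ := IsPGroup.iff_card.1 hRp
    rw [hn]
    exact Nat.Coprime.pow_left n hcopq.symm
  have hnormR : ∀ K : Subgroup H, K ≤ Subgroup.normalizer (R : Set H) := by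
    intro K
    rw [Subgroup.normalizer_eq_top]
    exact le_top
  obtain ⟨N₁, hN₁M, hN₁card⟩ :=
    Cfsg.Agent.Lib.Helper1.sz_exists_internal M R hRM (hnormR M) hcopM
  have hcopN : (Nat.card N₁).Coprime (Nat.card R) := by
    rw [hN₁card]; exact hcopM.symm
  have hcardM : Nat.card M = Nat.card R * R.relIndex M := by
    have h1 := Subgroup.relIndex_mul_relIndex ⊥ R M bot_le hRM
    rw [Subgroup.relIndex_bot_left, Subgroup.relIndex_bot_left] at h1
    exact h1.symm
  have hsup : R ⊔ N₁ = M := by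
    apply Subgroup.eq_of_le_of_card_ge (sup_le hRM hN₁M)
    rw [Cfsg.Agent.Lib.Helper1.card_sup_of_normalizer_coprime R N₁ (hnormR N₁) hcopN, hN₁card,
      hcardM]
  have hRsolv : Group.IsSolvable ↥R := by
    haveI := hRp.isNilpotent
    infer_instance
  -- suppose `p` divides the index of `R`
  by_contra hcop
  have hdvd : p ∣ Nat.card (H ⧸ R) := by
    by_contra h
    exact hcop ((hp.coprime_iff_not_dvd.2 h).symm)
  obtain ⟨xb, hxb⟩ := exists_prime_orderOf_dvd_card' p hdvd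
  obtain ⟨x, rfl⟩ := QuotientGroup.mk'_surjective R xb
  -- the Frattini argument
  have hA₁ : MulAut.conj x • N₁ ≤ R ⊔ N₁ := by
    rw [hsup]
    intro w hw
    rw [Cfsg.Agent.Lib.Helper1.mem_conj_smul] at hw
    have h1 := hMn.conj_mem _ (hN₁M hw) x
    have h2 : x * (x⁻¹ * w * x) * x⁻¹ = w := by group
    rwa [h2] at h1
  obtain ⟨n, hnR, hconj⟩ := Cfsg.Agent.Lib.Helper1.sz_conj_internal R N₁ (MulAut.conj x • N₁)
    (hnormR N₁) hcopN (Or.inr hRsolv) hA₁ (Cfsg.Agent.Lib.Helper1.card_conj_smul N₁ x)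
  have hyN : ∀ s ∈ N₁, (n * x) * s * (n * x)⁻¹ ∈ N₁ := by
    intro s hs
    have h1 : x * s * x⁻¹ ∈ MulAut.conj x • N₁ := by
      rw [Cfsg.Agent.Lib.Helper1.mem_conj_smul]
      have h2 : x⁻¹ * (x * s * x⁻¹) * x = s := by group
      rw [h2]; exact hs
    have h3 : n * (x * s * x⁻¹) * n⁻¹ ∈ MulAut.conj n • (MulAut.conj x • N₁) := by
      rw [Cfsg.Agent.Lib.Helper1.mem_conj_smul]
      have h2 : n⁻¹ * (n * (x * s * x⁻¹) * n⁻¹) * n = x * s * x⁻¹ := by group
      rw [h2]; exact h1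
    rw [hconj] at h3
    have h4 : n * x * s * (n * x)⁻¹ = n * (x * s * x⁻¹) * n⁻¹ := by group
    rw [h4]; exact h3
  have hyNpow : ∀ (i : ℕ), ∀ s ∈ N₁, (n * x) ^ i * s * ((n * x) ^ i)⁻¹ ∈ N₁ := by
    intro i
    induction i with
    | zero => intro s hs; simpa using hs
    | succ i ih =>
      intro s hs
      have h1 := hyN _ (ih s hs)
      have e : (n * x) ^ (i + 1) * s * ((n * x) ^ (i + 1))⁻¹ =
          (n * x) * ((n * x) ^ i * s * ((n * x) ^ i)⁻¹) * (n * x)⁻¹ := by
        generalize n * x = y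
        rw [pow_succ']; group
      rw [e]; exact h1
  -- `y = n * x` is a non-trivial `p`-element
  have hmkn : QuotientGroup.mk' R n = 1 := (QuotientGroup.eq_one_iff n).2 hnR
  have hmky : QuotientGroup.mk' R (n * x) = QuotientGroup.mk' R x := by
    rw [map_mul, hmkn, one_mul]
  have hxbp : (QuotientGroup.mk' R x) ^ p = 1 := by
    rw [← hxb]; exact pow_orderOf_eq_one _
  have hypR : (n * x) ^ p ∈ R := by
    have h1 : QuotientGroup.mk' R ((n * x) ^ p) = 1 := by rw [map_pow, hmky, hxbp]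
    exact (QuotientGroup.eq_one_iff _).1 h1
  obtain ⟨k, hk⟩ := hRp ⟨(n * x) ^ p, hypR⟩
  have hyk : (n * x) ^ p ^ (k + 1) = 1 := by
    have h1 : ((n * x) ^ p) ^ p ^ k = 1 := congrArg Subtype.val hk
    rw [pow_succ', pow_mul]; exact h1
  have hy1 : n * x ≠ 1 := by
    intro h
    rw [h, map_one] at hmky
    rw [← hmky, orderOf_one] at hxb
    exact hp.one_lt.ne hxb
  obtain ⟨i, hi1, hip⟩ := exists_pow_ne_one_pow_eq_one (n * x) (k + 1) hy1 hyk
  have hy₀Z := hE _ hip
  obtain ⟨hy₀R, hy₀C⟩ := Subgroup.mem_inf.1 hy₀Z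
  apply hi1
  have hy₀Z₀ : (n * x) ^ i ∈ Z₀ := by
    refine Subgroup.mem_inf.2 ⟨hy₀Z, ?_⟩
    have hMle : M ≤ Subgroup.centralizer ({(n * x) ^ i} : Set H) := by
      rw [← hsup]
      apply sup_le
      · intro r hr
        rw [Subgroup.mem_centralizer_iff]
        intro h hh
        rw [Set.mem_singleton_iff] at hh
        rw [hh]
        exact ((Subgroup.mem_centralizer_iff.1 hy₀C) r hr).symm
      · intro s hs
        rw [Subgroup.mem_centralizer_iff]
        intro h hh
        rw [Set.mem_singleton_iff] at hh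
        rw [hh]
        have hc1 : (n * x) ^ i * s * ((n * x) ^ i)⁻¹ * s⁻¹ ∈ N₁ :=
          N₁.mul_mem (hyNpow i s hs) (N₁.inv_mem hs)
        have hc2 : (n * x) ^ i * s * ((n * x) ^ i)⁻¹ * s⁻¹ ∈ R := by
          have h1 := hRn.conj_mem _ (R.inv_mem hy₀R) s
          have h2 := R.mul_mem hy₀R h1
          have e : (n * x) ^ i * (s * ((n * x) ^ i)⁻¹ * s⁻¹) =
              (n * x) ^ i * s * ((n * x) ^ i)⁻¹ * s⁻¹ := by
            generalize (n * x) ^ i = y₀
            group
          rwa [e] at h2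
        have hc3 := Cfsg.Agent.Lib.Helper1.eq_one_of_mem_of_coprime hcopN hc1 hc2
        calc (n * x) ^ i * s
            = ((n * x) ^ i * s * ((n * x) ^ i)⁻¹ * s⁻¹) * (s * (n * x) ^ i) := by
              generalize (n * x) ^ i = y₀
              group
          _ = s * (n * x) ^ i := by rw [hc3, one_mul]
    rw [Subgroup.mem_centralizer_iff]
    intro m hm
    have h1 := (Subgroup.mem_centralizer_iff.1 (hMle hm)) ((n * x) ^ i) (Set.mem_singleton _)
    exact h1.symm
  rw [hZ₀bot, Subgroup.mem_bot] at hy₀Z₀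
  exact hy₀Z₀

end Cfsg.Agent.Lib.Helper32
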