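import Mathlib
import Cfsg.Prelude.Def_Blocks
import Cfsg.Agent.Lib.Helper32.FongPSolv
import Cfsg.Agent.S0887

/-!
# A height-zero character stabilized by a Sylow subgroup of the block stabilizer

`exists_htzero_invariant`: if `N` is normal of `p`-power index in `X` and the block `c` of `N` is
`X`-stable, then `c` contains an `X`-invariant character of height zero.

`exists_htzero_sylow`: for `H` normal in `G`, `b` a block of `H` with stabilizer `T`, some
height-zero `θ ∈ b` has a stabilizer of index prime to `p` in `T`.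
-/

set_option autoImplicit false
set_option linter.unusedSectionVars false
set_option linter.style.haveILetI false

namespace Cfsg.Agent.Lib.Helper32

open Cfsg Cfsg.Agent.Lib.Helper16

section

universe u
variable {X : Type u} [Group X] [Fintype X]

/-- a character with an irreducible constituent of the same degree is that constituent -/
theorem eq_of_constituent_of_degree_eq {φ : X → ℂ} (hφ : Cfsg.IsCharacter X φ)
    (θ : Cfsg.IrrCharacter X) (hcon : Cfsg.classInner φ (θ : X → ℂ) ≠ 0)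
    (h1 : φ 1 = (θ : X → ℂ) 1) : φ = (θ : X → ℂ) := by
  classical
  haveI : Fintype (Cfsg.IrrCharacter X) := Fintype.ofFinite _
  obtain ⟨m, hm, hsum⟩ := Cfsg.Agent.Lib.Helper75.char_eq_sum_irr hφ
  have hmθ : m θ ≠ 0 := by
    intro h0
    apply hcon
    rw [hm θ, h0]; simp
  have hdeg : ∀ ψ : Cfsg.IrrCharacter X,
      (ψ : X → ℂ) 1 = (Cfsg.charDegree (ψ : X → ℂ) : ℂ) :=
    fun ψ => (Cfsg.Agent.Lib.Helper79.irr_charDegree ψ.2).1
  have hpos : ∀ ψ : Cfsg.IrrCharacter X, 0 < Cfsg.charDegree (ψ : X → ℂ) :=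
    fun ψ => (Cfsg.Agent.Lib.Helper79.irr_charDegree ψ.2).2.1
  have hnat : Cfsg.charDegree (θ : X → ℂ) =
      ∑ ψ : Cfsg.IrrCharacter X, m ψ * Cfsg.charDegree (ψ : X → ℂ) := by
    have e := congrFun hsum 1
    rw [h1, Finset.sum_apply] at e
    have e2 : ((Cfsg.charDegree (θ : X → ℂ) : ℕ) : ℂ) =
        ((∑ ψ : Cfsg.IrrCharacter X, m ψ * Cfsg.charDegree (ψ : X → ℂ) : ℕ) : ℂ) := by
      rw [← hdeg θ, e, Nat.cast_sum]
      refine Finset.sum_congr rfl (fun ψ _ => ?_)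
      rw [Pi.smul_apply, smul_eq_mul, hdeg ψ, Nat.cast_mul]
    exact_mod_cast e2
  have hsplit : ∑ ψ : Cfsg.IrrCharacter X, m ψ * Cfsg.charDegree (ψ : X → ℂ) =
      m θ * Cfsg.charDegree (θ : X → ℂ) +
        ∑ ψ ∈ Finset.univ.erase θ, m ψ * Cfsg.charDegree (ψ : X → ℂ) :=
    (Finset.add_sum_erase _ _ (Finset.mem_univ θ)).symm
  rw [hsplit] at hnat
  have hd := hpos θ
  have hmθ1 : m θ = 1 := by
    by_contra h6
    have h7 : 2 ≤ m θ := by omega
    have h8 : 2 * Cfsg.charDegree (θ : X → ℂ) ≤ m θ * Cfsg.charDegree (θ : X → ℂ) :=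
      Nat.mul_le_mul_right _ h7
    omega
  rw [hmθ1, one_mul] at hnat
  have hrest : ∑ ψ ∈ Finset.univ.erase θ, m ψ * Cfsg.charDegree (ψ : X → ℂ) = 0 := by omega
  have hzero : ∀ ψ : Cfsg.IrrCharacter X, ψ ≠ θ → m ψ = 0 := by
    intro ψ hψ
    have h9 := (Finset.sum_eq_zero_iff.mp hrest) ψ (Finset.mem_erase.mpr ⟨hψ, Finset.mem_univ ψ⟩)
    rcases Nat.mul_eq_zero.mp h9 with h | h
    · exact h
    · exact absurd h (hpos ψ).ne'
  rw [hsum]
  rw [Finset.sum_eq_single θ (fun ψ _ hψ => by rw [hzero ψ hψ]; simp)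
    (fun h => absurd (Finset.mem_univ θ) h), hmθ1]
  simp

/-- transport along an isomorphism does not change heights -/
theorem blockHeight_mapSet {H H' : Type*} [Group H] [Group H'] (α : H ≃* H') (p : ℕ)
    (A : Set (Cfsg.IrrCharacter H)) (θ : Cfsg.IrrCharacter H) :
    Cfsg.blockHeight p (Cfsg.Agent.Lib.Helper77.mapSet α A)
      (Cfsg.Agent.Lib.Helper77.mapIrr α θ : H' → ℂ) = Cfsg.blockHeight p A (θ : H → ℂ) := by
  unfold Cfsg.blockHeight Cfsg.Agent.Lib.Helper77.mapSet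
  rw [Set.image_image]
  have : (fun x : Cfsg.IrrCharacter H =>
      (Cfsg.charDegree (Cfsg.Agent.Lib.Helper77.mapIrr α x : H' → ℂ)).factorization p) =
      (fun χ : Cfsg.IrrCharacter H => (Cfsg.charDegree (χ : H → ℂ)).factorization p) := by
    funext χ
    unfold Cfsg.charDegree
    rw [Cfsg.Agent.Lib.Helper77.mapIrr_one]
  rw [this]
  unfold Cfsg.charDegree
  rw [Cfsg.Agent.Lib.Helper77.mapIrr_one]

/-- **Invariant height-zero character.**  `N` normal of `p`-power index, `c` an `X`-stable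
block of `N`: some height-zero member of `c` is `X`-invariant. -/
theorem exists_htzero_invariant (p : ℕ) [Fact p.Prime] (M : Ideal Cfsg.AlgInt)
    (hM : Cfsg.IsPModular p M) (N : Subgroup X) [hN : N.Normal] [Fintype N]
    (hidx : ∃ k, N.index = p ^ k) (c : Set (Cfsg.IrrCharacter N)) (hc : Cfsg.IsPBlock M c)
    (hst : ∀ θ ∈ c, ∀ g : X, conjIrr N θ g ∈ c) :
    ∃ θ ∈ c, Cfsg.blockHeight p c (θ : N → ℂ) = 0 ∧ ∀ (g : X) (n : N),
      (θ : N → ℂ) ⟨g * n * g⁻¹, hN.conj_mem n n.2 g⟩ = (θ : N → ℂ) n := by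
  classical
  have hMp := isPrime_of_isPModular hM
  have hp : p.Prime := Fact.out
  obtain ⟨B, ⟨hB, hBcov⟩, hBuniq⟩ := Cfsg.Agent.S0966.result p M hM N hidx c hc
  obtain ⟨D, hD⟩ := Cfsg.Agent.Lib.Helper77.exists_isDefectGroup p hMp B hB
  have h970 := (Cfsg.Agent.S0970.result p M hM N c hc (frozen_inv_of_conjIrr N hst) B hB hBcov
    (by
      intro B' hB' hc'
      rw [hBuniq B' ⟨hB', hc'⟩])
    D hD).2.2
  have hBne : ((fun χ : Cfsg.IrrCharacter X =>
      (Cfsg.charDegree (χ : X → ℂ)).factorization p) '' B).Nonempty :=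
    (IsPBlock.nonempty hMp hB).image _
  have hcne : ((fun θ : Cfsg.IrrCharacter N =>
      (Cfsg.charDegree (θ : N → ℂ)).factorization p) '' c).Nonempty :=
    (IsPBlock.nonempty hMp hc).image _
  obtain ⟨χ, hχB, hχmin⟩ := Nat.sInf_mem hBne
  obtain ⟨θ₀, hθ₀c, hθ₀min⟩ := Nat.sInf_mem hcne
  have hχdvd := (Cfsg.Agent.Lib.Helper79.irr_charDegree χ.2).2.2
  have hχpos := (Cfsg.Agent.Lib.Helper79.irr_charDegree χ.2).2.1
  have hθ₀dvd := (Cfsg.Agent.Lib.Helper79.irr_charDegree θ₀.2).2.2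
  have hθ₀pos := (Cfsg.Agent.Lib.Helper79.irr_charDegree θ₀.2).2.1
  have hle_B : sInf ((fun χ : Cfsg.IrrCharacter X =>
      (Cfsg.charDegree (χ : X → ℂ)).factorization p) '' B) ≤ (Nat.card X).factorization p := by
    rw [← hχmin]
    exact (Nat.factorization_le_iff_dvd hχpos.ne' Nat.card_pos.ne').mpr hχdvd p
  have hle_c : sInf ((fun θ : Cfsg.IrrCharacter N =>
      (Cfsg.charDegree (θ : N → ℂ)).factorization p) '' c) ≤ (Nat.card N).factorization p := by
    rw [← hθ₀min]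
    exact (Nat.factorization_le_iff_dvd hθ₀pos.ne' Nat.card_pos.ne').mpr hθ₀dvd p
  have hXfac : (Nat.card X).factorization p =
      (Nat.card N).factorization p + N.index.factorization p := by
    rw [← Subgroup.card_mul_index N,
      Nat.factorization_mul Nat.card_pos.ne' Subgroup.index_ne_zero_of_finite,
      Finsupp.add_apply]
  have hmin : sInf ((fun χ : Cfsg.IrrCharacter X =>
      (Cfsg.charDegree (χ : X → ℂ)).factorization p) '' B) =
      sInf ((fun θ : Cfsg.IrrCharacter N =>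
      (Cfsg.charDegree (θ : N → ℂ)).factorization p) '' c) := by
    unfold Cfsg.blockDefect at h970
    omega
  -- `χ` lies over some `θ ∈ c`
  obtain ⟨χ₁, hχ₁, θ₁, hθ₁, hne₁⟩ := hBcov
  obtain ⟨θ, hθc, hne⟩ := cover_all N hMp hB hc hχ₁ hθ₁ hne₁ hχB
  have hθpos := (Cfsg.Agent.Lib.Helper79.irr_charDegree θ.2).2.1
  obtain ⟨hdvd, hquot⟩ := Cfsg.Agent.S0887.result N (χ : X → ℂ) χ.2 (θ : N → ℂ) θ.2 hne
    (Cfsg.charDegree (χ : X → ℂ)) (Cfsg.charDegree (θ : N → ℂ))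
    (Cfsg.Agent.Lib.Helper79.irr_charDegree χ.2).1 (Cfsg.Agent.Lib.Helper79.irr_charDegree θ.2).1
  obtain ⟨k, hk⟩ := hidx
  rw [hk] at hquot
  obtain ⟨j, -, hj⟩ := (Nat.dvd_prime_pow hp).mp hquot
  have hχdeg : Cfsg.charDegree (χ : X → ℂ) = Cfsg.charDegree (θ : N → ℂ) * p ^ j := by
    rw [← hj]
    exact (Nat.mul_div_cancel' hdvd).symm
  have hfχ : (Cfsg.charDegree (χ : X → ℂ)).factorization p =
      (Cfsg.charDegree (θ : N → ℂ)).factorization p + j := by
    rw [hχdeg, Nat.factorization_mul hθpos.ne' (pow_ne_zero _ hp.ne_zero), Finsupp.add_apply,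
      Nat.factorization_pow, Finsupp.smul_apply, hp.factorization_self, smul_eq_mul, mul_one]
  have hfθ : sInf ((fun θ : Cfsg.IrrCharacter N =>
      (Cfsg.charDegree (θ : N → ℂ)).factorization p) '' c) ≤
      (Cfsg.charDegree (θ : N → ℂ)).factorization p := Nat.sInf_le ⟨θ, hθc, rfl⟩
  have hj0 : j = 0 := by
    simp only at hχmin
    omega
  have hht : Cfsg.blockHeight p c (θ : N → ℂ) = 0 := by
    unfold Cfsg.blockHeight
    simp only at hχmin
    omega
  have hdegeq : Cfsg.charDegree (χ : X → ℂ) = Cfsg.charDegree (θ : N → ℂ) := by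
    rw [hχdeg, hj0, pow_zero, mul_one]
  have hres : (fun n : N => (χ : X → ℂ) n) = (θ : N → ℂ) :=
    eq_of_constituent_of_degree_eq
      (Cfsg.Agent.Lib.Helper75.isCharacter_res N (Cfsg.Agent.Lib.Helper3.isCharacter_of_irr χ.2))
      θ hne (by
        show (χ : X → ℂ) ((1 : N) : X) = _
        rw [OneMemClass.coe_one, (Cfsg.Agent.Lib.Helper79.irr_charDegree χ.2).1,
          (Cfsg.Agent.Lib.Helper79.irr_charDegree θ.2).1, hdegeq])
  refine ⟨θ, hθc, hht, ?_⟩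
  intro g n
  rw [← hres]
  exact irrCharacter_conj_eq χ g n

end

section Main

universe u
variable {G : Type u} [Group G] [Finite G]

/-- **A height-zero character with a large stabilizer** (statement S4723). -/
theorem exists_htzero_sylow (p : ℕ) [Fact p.Prime] (M : Ideal Cfsg.AlgInt)
    (hM : Cfsg.IsPModular p M) (H : Subgroup G) [hH : H.Normal]
    (b : Set (Cfsg.IrrCharacter ↥H)) (hb : Cfsg.IsPBlock M b) (T : Subgroup G)
    (hT : (∀ g : G, g ∈ T ↔ ∀ θ ∈ b, ∀ θ' : Cfsg.IrrCharacter ↥H,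
      (∀ h h' : ↥H, (h' : G) = g * h * g⁻¹ → (θ' : ↥H → ℂ) h' = (θ : ↥H → ℂ) h) → θ' ∈ b)) :
    ∃ θ ∈ b, Cfsg.blockHeight p b (θ : ↥H → ℂ) = 0 ∧ ∃ S : Subgroup G, S ≤ T ∧
      (∀ g : G, g ∈ S ↔ (g ∈ T ∧ ∀ h h' : ↥H, (h' : G) = g * h * g⁻¹ →
        (θ : ↥H → ℂ) h' = (θ : ↥H → ℂ) h)) ∧ ¬ p ∣ S.relIndex T := by
  classical
  haveI : Fintype G := Fintype.ofFinite G
  haveI : Fintype H := Fintype.ofFinite H
  have hMp := isPrime_of_isPModular hM
  have hp : p.Prime := Fact.out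
  -- elements of `T` stabilize `b`
  have hTconj : ∀ g ∈ T, ∀ θ ∈ b, conjIrr H θ g ∈ b := by
    intro g hg θ hθ
    refine (hT g).mp hg θ hθ (conjIrr H θ g) ?_
    intro h h' hh'
    have hmem : g⁻¹ * (h' : G) * g ∈ H := by
      rw [hh']
      have e : g⁻¹ * (g * (h : G) * g⁻¹) * g = (h : G) := by group
      rw [e]
      exact h.2
    rw [conjIrr_apply H θ g h' hmem]
    refine congrArg (θ : H → ℂ) (Subtype.ext ?_)
    show g⁻¹ * (h' : G) * g = (h : G)
    rw [hh']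
    group
  have hHT : H ≤ T := by
    intro x hx
    rw [hT]
    intro θ hθ θ' hθ'
    have e : θ' = θ := by
      apply Subtype.ext
      funext h'
      have hmem : x⁻¹ * (h' : G) * x ∈ H := H.mul_mem (H.mul_mem (H.inv_mem hx) h'.2) hx
      have e1 := hθ' ⟨x⁻¹ * (h' : G) * x, hmem⟩ h' (by
        show (h' : G) = x * (x⁻¹ * (h' : G) * x) * x⁻¹
        group)
      rw [e1]
      have e2 := irrCharacter_conj_eq θ (⟨x, hx⟩ : H)⁻¹ h'
      rw [← e2]
      refine congrArg (θ : H → ℂ) (Subtype.ext ?_)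
      show x⁻¹ * (h' : G) * x = x⁻¹ * (h' : G) * (x⁻¹)⁻¹
      rw [inv_inv]
    rw [e]
    exact hθ
  -- the subgroup `G1 = H Q`
  obtain ⟨Q⟩ : Nonempty (Sylow p T) := inferInstance
  obtain ⟨Q', hQ'def⟩ : ∃ Q' : Subgroup G, Q' = (Q : Subgroup T).map T.subtype := ⟨_, rfl⟩
  have hQ'T : Q' ≤ T := by rw [hQ'def]; exact Subgroup.map_subtype_le _
  obtain ⟨G1, hG1def⟩ : ∃ G1 : Subgroup G, G1 = H ⊔ Q' := ⟨_, rfl⟩
  have hHG1 : H ≤ G1 := by rw [hG1def]; exact le_sup_left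
  have hQ'G1 : Q' ≤ G1 := by rw [hG1def]; exact le_sup_right
  have hG1T : G1 ≤ T := by rw [hG1def]; exact sup_le hHT hQ'T
  haveI : Fintype G1 := Fintype.ofFinite _
  haveI : Fintype (H.subgroupOf G1) := Fintype.ofFinite _
  haveI hN' : (H.subgroupOf G1).Normal := hH.subgroupOf G1
  have hidx : ∃ k, (H.subgroupOf G1).index = p ^ k := by
    have h1 : (H.subgroupOf G1).index = H.relIndex Q' := by
      show H.relIndex G1 = _
      rw [hG1def]
      exact Subgroup.relIndex_sup_left (K := H) (H := Q')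
    have h2 : H.relIndex Q' ∣ Nat.card Q' := Subgroup.relIndex_dvd_card H Q'
    have h3 : IsPGroup p Q' := by rw [hQ'def]; exact Q.2.map _
    obtain ⟨m, hm⟩ := IsPGroup.iff_card.mp h3
    rw [hm] at h2
    obtain ⟨k, -, hk⟩ := (Nat.dvd_prime_pow hp).mp h2
    exact ⟨k, h1.trans hk⟩
  have hc : Cfsg.IsPBlock M (subBlock H G1 hHG1 b) :=
    Cfsg.Agent.Lib.Helper77.isPBlock_mapSet hMp _ hb
  have hst : ∀ θ' ∈ subBlock H G1 hHG1 b, ∀ t : G1,
      conjIrr (H.subgroupOf G1) θ' t ∈ subBlock H G1 hHG1 b :=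
    subBlock_stable H G1 hHG1 (fun g hg θ hθ => hTconj g (hG1T hg) θ hθ)
  obtain ⟨θ', hθ'c, hht, hinv⟩ :=
    exists_htzero_invariant p M hM (H.subgroupOf G1) hidx _ hc hst
  obtain ⟨θ, hθb, rfl⟩ := hθ'c
  refine ⟨θ, hθb, ?_, ?_⟩
  · have e := blockHeight_mapSet (Subgroup.subgroupOfEquivOfLe hHG1).symm p b θ
    rw [← e]
    exact hht
  · -- invariance of `θ` under `G1`
    have hθinv : ∀ g ∈ G1, ∀ h h' : H, (h' : G) = g * h * g⁻¹ →
        (θ : H → ℂ) h' = (θ : H → ℂ) h := by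
      intro g hg h h' hh'
      have e := hinv ⟨g, hg⟩ ((Subgroup.subgroupOfEquivOfLe hHG1).symm h)
      rw [Cfsg.Agent.Lib.Helper77.mapIrr_apply, Cfsg.Agent.Lib.Helper77.mapIrr_apply,
        MulEquiv.symm_symm, MulEquiv.apply_symm_apply] at e
      rw [← e]
      refine congrArg (θ : H → ℂ) (Subtype.ext ?_)
      rw [hh']
      rfl
    have hinvmul : ∀ g₁ g₂ : G,
        (∀ h h' : H, (h' : G) = g₁ * h * g₁⁻¹ → (θ : H → ℂ) h' = (θ : H → ℂ) h) →
        (∀ h h' : H, (h' : G) = g₂ * h * g₂⁻¹ → (θ : H → ℂ) h' = (θ : H → ℂ) h) →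
        ∀ h h' : H, (h' : G) = (g₁ * g₂) * h * (g₁ * g₂)⁻¹ →
          (θ : H → ℂ) h' = (θ : H → ℂ) h := by
      intro g₁ g₂ h1 h2 h h' hh'
      have hmem : g₂ * (h : G) * g₂⁻¹ ∈ H := hH.conj_mem h h.2 g₂
      rw [h1 ⟨g₂ * (h : G) * g₂⁻¹, hmem⟩ h' (by
        show (h' : G) = g₁ * (g₂ * (h : G) * g₂⁻¹) * g₁⁻¹
        rw [hh']; group)]
      exact h2 h ⟨g₂ * (h : G) * g₂⁻¹, hmem⟩ rfl
    have hinvinv : ∀ g : G,
        (∀ h h' : H, (h' : G) = g * h * g⁻¹ → (θ : H → ℂ) h' = (θ : H → ℂ) h) →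
        ∀ h h' : H, (h' : G) = g⁻¹ * h * g⁻¹⁻¹ → (θ : H → ℂ) h' = (θ : H → ℂ) h := by
      intro g h1 h h' hh'
      exact (h1 h' h (by rw [hh']; group)).symm
    obtain ⟨S, hS⟩ : ∃ S : Subgroup G, ∀ g : G, g ∈ S ↔ (g ∈ T ∧ ∀ h h' : H,
        (h' : G) = g * h * g⁻¹ → (θ : H → ℂ) h' = (θ : H → ℂ) h) :=
      ⟨{ carrier := {g | g ∈ T ∧ ∀ h h' : H, (h' : G) = g * h * g⁻¹ →
                (θ : H → ℂ) h' = (θ : H → ℂ) h},
         mul_mem' := fun {g₁ g₂} h1 h2 => ⟨T.mul_mem h1.1 h2.1, hinvmul g₁ g₂ h1.2 h2.2⟩,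
         one_mem' := ⟨T.one_mem, fun h h' hh' => by
                have : h' = h := Subtype.ext (by rw [hh']; group)
                rw [this]⟩,
         inv_mem' := fun {g} h1 => ⟨T.inv_mem h1.1, hinvinv g h1.2⟩ }, fun g => Iff.rfl⟩
    refine ⟨S, fun g hg => ((hS g).mp hg).1, hS, ?_⟩
    intro hdvd
    have hQS : Q' ≤ S := fun g hg => (hS g).mpr ⟨hQ'T hg, hθinv g (hQ'G1 hg)⟩
    have h1 := Subgroup.relIndex_dvd_of_le_left T hQS
    have h2 : Q'.relIndex T = (Q : Subgroup T).index := by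
      show (Q'.subgroupOf T).index = _
      rw [hQ'def]
      congr 1
      exact Subgroup.comap_map_eq_self_of_injective T.subtype_injective _
    rw [h2] at h1
    exact Q.not_dvd_index (dvd_trans hdvd h1)

end Main

end Cfsg.Agent.Lib.Helper32
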