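import Mathlib

/-!
# The concrete wreath product `C_p ≀ C_p` and an embedding criterion (helper32)

* `Wr p`: the semidirect product of `ZMod p → ZMod p` by `ZMod p` acting by shifts (a type in
  `Type 0`);
* `wr_prop`: the structural properties of `Wr p` used in the statement S3787;
* `wr_embed`: if `A` is an abelian normal subgroup of exponent `p` of `M`, `x ∉ A`, `x ^ p = 1`,
  `v ∈ A` and `(v * x) ^ p ≠ 1`, then `Wr p` embeds in `M`.
-/

set_option autoImplicit false

namespace Cfsg.Agent.Lib.Helper32

/-- The base group of the wreath product. -/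
abbrev WrN (p : ℕ) : Type := Multiplicative (ZMod p → ZMod p)

/-- The top group of the wreath product. -/
abbrev WrG (p : ℕ) : Type := Multiplicative (ZMod p)

/-- The shift action of `ZMod p` on functions `ZMod p → ZMod p`. -/
def wrShift (p : ℕ) : WrG p →* MulAut (WrN p) where
  toFun g :=
    { toFun := fun f =>
        Multiplicative.ofAdd (fun j => Multiplicative.toAdd f (j - Multiplicative.toAdd g))
      invFun := fun f =>
        Multiplicative.ofAdd (fun j => Multiplicative.toAdd f (j + Multiplicative.toAdd g))
      left_inv := by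
        intro f
        apply Multiplicative.toAdd.injective
        funext j
        show Multiplicative.toAdd f (j + Multiplicative.toAdd g - Multiplicative.toAdd g) =
          Multiplicative.toAdd f j
        rw [add_sub_cancel_right]
      right_inv := by
        intro f
        apply Multiplicative.toAdd.injective
        funext j
        show Multiplicative.toAdd f (j - Multiplicative.toAdd g + Multiplicative.toAdd g) =
          Multiplicative.toAdd f j
        rw [sub_add_cancel]
      map_mul' := by
        intro f f'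
        rfl }
  map_one' := by
    apply MulEquiv.ext
    intro f
    apply Multiplicative.toAdd.injective
    funext j
    show Multiplicative.toAdd f (j - 0) = Multiplicative.toAdd f j
    rw [sub_zero]
  map_mul' := by
    intro g g'
    apply MulEquiv.ext
    intro f
    apply Multiplicative.toAdd.injective
    funext j
    show Multiplicative.toAdd f (j - (Multiplicative.toAdd g + Multiplicative.toAdd g')) =
      Multiplicative.toAdd f (j - Multiplicative.toAdd g - Multiplicative.toAdd g')
    rw [sub_add_eq_sub_sub]

theorem wrShift_apply (p : ℕ) (g : WrG p) (f : WrN p) (j : ZMod p) :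
    Multiplicative.toAdd (wrShift p g f) j =
      Multiplicative.toAdd f (j - Multiplicative.toAdd g) := rfl

/-- The wreath product `C_p ≀ C_p`, as a type in `Type 0`. -/
abbrev Wr (p : ℕ) : Type := WrN p ⋊[wrShift p] WrG p

theorem wr_finite (p : ℕ) [Fact p.Prime] : Finite (Wr p) := by
  have : NeZero p := ⟨(Fact.out : p.Prime).ne_zero⟩
  exact Finite.of_equiv _ (SemidirectProduct.equivProd (φ := wrShift p)).symm

theorem wrN_pow_eq_one (p : ℕ) (n : WrN p) : n ^ p = 1 := by
  apply Multiplicative.toAdd.injective
  funext j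
  show (p • Multiplicative.toAdd n) j = 0
  rw [Pi.smul_apply, nsmul_eq_mul, CharP.cast_eq_zero, zero_mul]

theorem wr_eq_inl_of_mem_ker (p : ℕ) (b : Wr p)
    (hb : b ∈ (SemidirectProduct.rightHom : Wr p →* WrG p).ker) :
    b = SemidirectProduct.inl b.left := by
  have h1 : b.right = 1 := hb
  ext
  · rfl
  · rw [h1]; rfl

/-- The constant functions. -/
def wrConst (p : ℕ) : WrG p →* WrN p where
  toFun c := Multiplicative.ofAdd (fun _ => Multiplicative.toAdd c)
  map_one' := rfl
  map_mul' _ _ := rfl

theorem wrConst_injective (p : ℕ) [NeZero p] : Function.Injective (wrConst p) := by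
  intro a b hab
  have h1 := congrFun (congrArg Multiplicative.toAdd hab) 0
  exact Multiplicative.toAdd.injective h1

theorem wr_const_of_shift (p : ℕ) [NeZero p] (n : WrN p)
    (h : wrShift p (Multiplicative.ofAdd (1 : ZMod p)) n = n) :
    n = wrConst p (Multiplicative.ofAdd (Multiplicative.toAdd n 0)) := by
  have h1 : ∀ j : ZMod p, Multiplicative.toAdd n (j - 1) = Multiplicative.toAdd n j := by
    intro j
    have h2 := congrFun (congrArg Multiplicative.toAdd h) j
    exact h2
  have h3 : ∀ k : ℕ, Multiplicative.toAdd n (k : ZMod p) = Multiplicative.toAdd n 0 := by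
    intro k
    induction k with
    | zero => simp
    | succ k ih =>
      have h4 := h1 ((k : ZMod p) + 1)
      rw [add_sub_cancel_right] at h4
      rw [Nat.cast_succ, ← h4, ih]
  apply Multiplicative.toAdd.injective
  funext j
  show Multiplicative.toAdd n j = Multiplicative.toAdd n 0
  rw [← ZMod.natCast_zmod_val j]
  exact h3 _

theorem wr_prop (p : ℕ) [Fact p.Prime] :
    ∃ (B : Subgroup (Wr p)) (t : Wr p), B.Normal ∧ IsMulCommutative B ∧ (∀ b ∈ B, b ^ p = 1) ∧
      Nat.card B = p ^ p ∧ orderOf t = p ∧ t ∉ B ∧ Nat.card (Wr p) = p ^ (p + 1) ∧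
      Nat.card ↥(B ⊓ Subgroup.centralizer ({t} : Set (Wr p))) = p := by
  have hp : p.Prime := Fact.out
  have : NeZero p := ⟨hp.ne_zero⟩
  have hcardN : Nat.card (WrN p) = p ^ p := by
    rw [Nat.card_congr (Multiplicative.toAdd (α := ZMod p → ZMod p)), Nat.card_fun,
      Nat.card_zmod]
  have hcardG : Nat.card (WrG p) = p := by
    rw [Nat.card_congr (Multiplicative.toAdd (α := ZMod p)), Nat.card_zmod]
  refine ⟨(SemidirectProduct.rightHom : Wr p →* WrG p).ker,
    SemidirectProduct.inr (Multiplicative.ofAdd (1 : ZMod p)), MonoidHom.normal_ker _,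
    ?_, ?_, ?_, ?_, ?_, ?_, ?_⟩
  · refine ⟨⟨fun a b => ?_⟩⟩
    apply Subtype.ext
    have ha := wr_eq_inl_of_mem_ker p a.1 a.2
    have hb := wr_eq_inl_of_mem_ker p b.1 b.2
    show (a : Wr p) * (b : Wr p) = (b : Wr p) * (a : Wr p)
    rw [ha, hb, ← map_mul, ← map_mul, mul_comm]
  · intro b hb
    rw [wr_eq_inl_of_mem_ker p b hb, ← map_pow, wrN_pow_eq_one, map_one]
  · rw [← SemidirectProduct.range_inl_eq_ker_rightHom,
      ← Nat.card_congr (MonoidHom.ofInjective
        (SemidirectProduct.inl_injective (φ := wrShift p))).toEquiv, hcardN]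
  · rw [orderOf_injective (SemidirectProduct.inr : WrG p →* Wr p)
      SemidirectProduct.inr_injective, orderOf_ofAdd_eq_addOrderOf, ZMod.addOrderOf_one]
  · intro h
    have h1 : (Multiplicative.ofAdd (1 : ZMod p)) = 1 := by
      have h2 : SemidirectProduct.rightHom
          (SemidirectProduct.inr (Multiplicative.ofAdd (1 : ZMod p)) : Wr p) = 1 := h
      rwa [SemidirectProduct.rightHom_inr] at h2
    have h3 : (1 : ZMod p) = 0 := h1
    exact one_ne_zero h3
  · rw [SemidirectProduct.card, hcardN, hcardG, pow_succ]
  · have hset : (SemidirectProduct.rightHom : Wr p →* WrG p).ker ⊓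
        Subgroup.centralizer ({SemidirectProduct.inr (Multiplicative.ofAdd (1 : ZMod p))} :
          Set (Wr p)) =
        ((SemidirectProduct.inl : WrN p →* Wr p).comp (wrConst p)).range := by
      ext b
      rw [Subgroup.mem_inf]
      constructor
      · rintro ⟨hbB, hbC⟩
        have hb := wr_eq_inl_of_mem_ker p b hbB
        rw [Subgroup.mem_centralizer_iff] at hbC
        have h1 := hbC _ (Set.mem_singleton _)
        have h2 := congrArg SemidirectProduct.left h1
        simp only [SemidirectProduct.mul_left, SemidirectProduct.left_inr,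
          SemidirectProduct.right_inr, one_mul, map_one, mul_one] at h2
        have h3 := wr_const_of_shift p b.left h2
        refine ⟨Multiplicative.ofAdd (Multiplicative.toAdd b.left 0), ?_⟩
        rw [MonoidHom.comp_apply, ← h3]
        exact hb.symm
      · rintro ⟨c, rfl⟩
        refine ⟨?_, ?_⟩
        · show SemidirectProduct.rightHom
            ((SemidirectProduct.inl : WrN p →* Wr p) (wrConst p c)) = 1
          rw [SemidirectProduct.rightHom_inl]
        · rw [Subgroup.mem_centralizer_iff]
          intro h hh
          rw [Set.mem_singleton_iff] at hh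
          subst hh
          ext
          · simp only [SemidirectProduct.mul_left, SemidirectProduct.left_inr,
              SemidirectProduct.right_inr, one_mul, map_one, mul_one]
            rfl
          · rw [SemidirectProduct.mul_right, SemidirectProduct.mul_right,
              SemidirectProduct.right_inr]
            show Multiplicative.ofAdd (1 : ZMod p) * 1 = 1 * Multiplicative.ofAdd (1 : ZMod p)
            rw [mul_one, one_mul]
    rw [hset, ← Nat.card_congr (MonoidHom.ofInjective
      (f := (SemidirectProduct.inl : WrN p →* Wr p).comp (wrConst p))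
      (SemidirectProduct.inl_injective.comp (wrConst_injective p))).toEquiv, hcardG]

section Embed

variable {p : ℕ} [Fact p.Prime] {M : Type*} [Group M]

/-- The homomorphism `ZMod p → M` sending `1` to `x`, when `x ^ p = 1`. -/
def wrGamma (x : M) (hxp : x ^ p = 1) : WrG p →* M where
  toFun g := x ^ (Multiplicative.toAdd g).val
  map_one' := by
    show x ^ (0 : ZMod p).val = 1
    have : NeZero p := ⟨(Fact.out : p.Prime).ne_zero⟩
    rw [ZMod.val_zero, pow_zero]
  map_mul' := by
    intro a b
    have : NeZero p := ⟨(Fact.out : p.Prime).ne_zero⟩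
    show x ^ (Multiplicative.toAdd a + Multiplicative.toAdd b).val =
      x ^ (Multiplicative.toAdd a).val * x ^ (Multiplicative.toAdd b).val
    rw [ZMod.val_add, ← pow_add, ← pow_eq_pow_mod _ hxp]

open scoped IsMulCommutative in
/-- **Embedding of `C_p ≀ C_p`.** If `A` is an abelian normal subgroup of exponent `p` of `M`,
`x ∉ A` has `x ^ p = 1`, and `v ∈ A` satisfies `(v * x) ^ p ≠ 1`, then `Wr p` embeds in `M`. -/
theorem wr_embed (A : Subgroup M) [hAn : A.Normal]
    (hcomm : ∀ a ∈ A, ∀ b ∈ A, a * b = b * a) (hexp : ∀ a ∈ A, a ^ p = 1)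
    (x v : M) (hxA : x ∉ A) (hxp : x ^ p = 1) (hv : v ∈ A) (hN : (v * x) ^ p ≠ 1) :
    ∃ θ : Wr p →* M, Function.Injective θ := by
  classical
  have hp : p.Prime := Fact.out
  have hne : NeZero p := ⟨hp.ne_zero⟩
  have : IsMulCommutative ↥A := ⟨⟨fun a b => Subtype.ext (hcomm a a.2 b b.2)⟩⟩
  have hcp : ∀ a : ↥A, a ^ p = 1 := fun a => Subtype.ext (hexp a a.2)
  have hcardN : Nat.card (WrN p) = p ^ p := by
    rw [Nat.card_congr (Multiplicative.toAdd (α := ZMod p → ZMod p)), Nat.card_fun,
      Nat.card_zmod]
  have hcardG : Nat.card (WrG p) = p := by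
    rw [Nat.card_congr (Multiplicative.toAdd (α := ZMod p)), Nat.card_zmod]
  let γ : WrG p →* M := wrGamma x hxp
  have hγ : ∀ g : WrG p, γ g = x ^ (Multiplicative.toAdd g).val := fun g => rfl
  let c : ZMod p → ↥A := fun j => MulAut.conjNormal (γ (Multiplicative.ofAdd j)) ⟨v, hv⟩
  have hc : ∀ j : ZMod p, ((c j : ↥A) : M) =
      γ (Multiplicative.ofAdd j) * v * (γ (Multiplicative.ofAdd j))⁻¹ := fun j => rfl
  let β : WrN p →* ↥A :=
    { toFun := fun f => ∏ j : ZMod p, c j ^ (Multiplicative.toAdd f j).val
      map_one' := by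
        apply Finset.prod_eq_one
        intro j _
        show c j ^ (0 : ZMod p).val = 1
        rw [ZMod.val_zero, pow_zero]
      map_mul' := by
        intro f f'
        rw [← Finset.prod_mul_distrib]
        apply Finset.prod_congr rfl
        intro j _
        show c j ^ (Multiplicative.toAdd f j + Multiplicative.toAdd f' j).val = _
        rw [ZMod.val_add, ← pow_add, ← pow_eq_pow_mod _ (hcp (c j))] }
  have hβ : ∀ f : WrN p, β f = ∏ j : ZMod p, c j ^ (Multiplicative.toAdd f j).val :=
    fun f => rfl
  have hcompat : ∀ (g : WrG p) (f : WrN p),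
      β (wrShift p g f) = MulAut.conjNormal (γ g) (β f) := by
    intro g f
    rw [hβ, hβ, map_prod]
    refine (Equiv.prod_comp (Equiv.addRight (Multiplicative.toAdd g))
      (fun j => c j ^ (Multiplicative.toAdd (wrShift p g f) j).val)).symm.trans ?_
    apply Finset.prod_congr rfl
    intro j _
    rw [map_pow]
    have h1 : Multiplicative.toAdd (wrShift p g f) (j + Multiplicative.toAdd g) =
        Multiplicative.toAdd f j := by
      rw [wrShift_apply, add_sub_cancel_right]
    have h2 : c (j + Multiplicative.toAdd g) = MulAut.conjNormal (γ g) (c j) := by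
      apply Subtype.ext
      show γ (Multiplicative.ofAdd (j + Multiplicative.toAdd g)) * v *
          (γ (Multiplicative.ofAdd (j + Multiplicative.toAdd g)))⁻¹ =
        γ g * (γ (Multiplicative.ofAdd j) * v * (γ (Multiplicative.ofAdd j))⁻¹) * (γ g)⁻¹
      have h3 : γ (Multiplicative.ofAdd (j + Multiplicative.toAdd g)) =
          γ g * γ (Multiplicative.ofAdd j) := by
        rw [← map_mul]
        congr 1
        show Multiplicative.ofAdd (j + Multiplicative.toAdd g) =
          Multiplicative.ofAdd (Multiplicative.toAdd g + j)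
        rw [add_comm]
      rw [h3]; group
    show c (j + Multiplicative.toAdd g) ^
        (Multiplicative.toAdd (wrShift p g f) (j + Multiplicative.toAdd g)).val = _
    rw [h1, h2]
  -- the product of all conjugates
  have hform : ∀ m : ℕ, (v * x) ^ m =
      ((∏ i ∈ Finset.range m, c (i : ZMod p) : ↥A) : M) * x ^ m := by
    intro m
    induction m with
    | zero => simp
    | succ m ih =>
      rw [pow_succ, ih, Finset.prod_range_succ, Subgroup.coe_mul, hc, hγ]
      have h1 : (Multiplicative.toAdd (Multiplicative.ofAdd ((m : ℕ) : ZMod p))).val = m % p :=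
        ZMod.val_natCast p m
      rw [h1, ← pow_eq_pow_mod _ hxp, pow_succ]
      group
  have hrange : ∏ i ∈ Finset.range p, c (i : ZMod p) = ∏ j : ZMod p, c j := by
    refine Finset.prod_nbij' (fun i : ℕ => (i : ZMod p)) (fun j : ZMod p => j.val) ?_ ?_ ?_ ?_ ?_
    · intro a _; exact Finset.mem_univ _
    · intro a _; exact Finset.mem_range.2 (ZMod.val_lt a)
    · intro a ha; exact ZMod.val_natCast_of_lt (Finset.mem_range.1 ha)
    · intro a _; exact ZMod.natCast_zmod_val a
    · intro a _; rfl
  have hβinj : ∀ f : WrN p, β f = 1 → f = 1 := by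
    intro f hf
    by_contra hf1
    let _ : MulAction (WrG p) ↥(β.ker) :=
      { smul := fun g k => ⟨wrShift p g k.1, by
          rw [MonoidHom.mem_ker, hcompat, (MonoidHom.mem_ker).1 k.2, map_one]⟩
        one_smul := fun k => Subtype.ext (by
          show wrShift p 1 k.1 = k.1
          rw [map_one]; rfl)
        mul_smul := fun g g' k => Subtype.ext (by
          show wrShift p (g * g') k.1 = wrShift p g (wrShift p g' k.1)
          rw [map_mul]; rfl) }
    have hsmul : ∀ (g : WrG p) (k : ↥(β.ker)), ((g • k : ↥(β.ker)) : WrN p) = wrShift p g k.1 :=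
      fun g k => rfl
    have hG : IsPGroup p (WrG p) := IsPGroup.of_card (n := 1) (by rw [pow_one]; exact hcardG)
    have hdvd : p ∣ Nat.card ↥(β.ker) := by
      have hNp : IsPGroup p (WrN p) := IsPGroup.of_card hcardN
      have hker : IsPGroup p ↥(β.ker) := hNp.to_subgroup _
      have : Finite (WrN p) := Nat.finite_of_card_ne_zero (by rw [hcardN]; exact pow_ne_zero _ hp.ne_zero)
      obtain ⟨n, hn⟩ := IsPGroup.iff_card.1 hker
      rcases n with _ | n
      · exfalso
        rw [pow_zero] at hn
        have h1 := (Subgroup.card_eq_one).1 hn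
        apply hf1
        have hfk : f ∈ β.ker := hf
        rw [h1, Subgroup.mem_bot] at hfk
        exact hfk
      · rw [hn, pow_succ]; exact dvd_mul_left _ _
    have : Finite (WrN p) := Nat.finite_of_card_ne_zero (by rw [hcardN]; exact pow_ne_zero _ hp.ne_zero)
    have hfix1 : (1 : ↥(β.ker)) ∈ MulAction.fixedPoints (WrG p) ↥(β.ker) := by
      intro g
      apply Subtype.ext
      rw [hsmul]
      show wrShift p g 1 = 1
      rw [map_one]
    obtain ⟨b, hb, hb1⟩ :=
      hG.exists_fixed_point_of_prime_dvd_card_of_fixed_point ↥(β.ker) hdvd hfix1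
    have hbfix : wrShift p (Multiplicative.ofAdd (1 : ZMod p)) b.1 = b.1 := by
      have h1 := congrArg Subtype.val (hb (Multiplicative.ofAdd (1 : ZMod p)))
      rwa [hsmul] at h1
    have hbc := wr_const_of_shift p b.1 hbfix
    have hc0ne : Multiplicative.toAdd b.1 0 ≠ 0 := by
      intro h0
      apply hb1
      apply Subtype.ext
      rw [hbc, h0]
      rfl
    have hprod : (∏ j : ZMod p, c j) ^ (Multiplicative.toAdd b.1 0).val = 1 := by
      have h1 : β b.1 = 1 := b.2
      rw [hbc, hβ] at h1
      rw [← Finset.prod_pow]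
      exact h1
    have hval : (Multiplicative.toAdd b.1 0).val ≠ 0 := by
      rwa [Ne, ZMod.val_eq_zero]
    have hlt : (Multiplicative.toAdd b.1 0).val < p := ZMod.val_lt _
    have hcop : Nat.gcd (Multiplicative.toAdd b.1 0).val p = 1 := by
      have h1 : Nat.Coprime p (Multiplicative.toAdd b.1 0).val := by
        rw [hp.coprime_iff_not_dvd]
        intro hd
        exact hval (Nat.eq_zero_of_dvd_of_lt hd hlt)
      exact h1.symm
    have hprod1 : ∏ j : ZMod p, c j = 1 := by
      have h1 := orderOf_dvd_of_pow_eq_one hprod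
      have h2 := orderOf_dvd_of_pow_eq_one (hcp (∏ j : ZMod p, c j))
      have h3 := Nat.dvd_gcd h1 h2
      rw [hcop, Nat.dvd_one] at h3
      exact orderOf_eq_one_iff.1 h3
    apply hN
    rw [hform p, hrange, hprod1, hxp]
    show (1 : M) * 1 = 1
    exact mul_one 1
  have hlift : ∀ g : WrG p, (A.subtype.comp β).comp (wrShift p g).toMonoidHom =
      (MulAut.conj (γ g)).toMonoidHom.comp (A.subtype.comp β) := by
    intro g
    apply MonoidHom.ext
    intro f
    show ((β (wrShift p g f) : ↥A) : M) = γ g * ((β f : ↥A) : M) * (γ g)⁻¹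
    rw [hcompat]
    rfl
  refine ⟨SemidirectProduct.lift (A.subtype.comp β) γ hlift, ?_⟩
  rw [injective_iff_map_eq_one]
  intro w hw
  have hw' : ((β w.left : ↥A) : M) * γ w.right = 1 := hw
  have hγA : γ w.right ∈ A := by
    have h1 : γ w.right = ((β w.left : ↥A) : M)⁻¹ := eq_inv_of_mul_eq_one_right hw'
    rw [h1]
    exact A.inv_mem (β w.left).2
  have hright : w.right = 1 := by
    by_contra hne1
    have h0 : Multiplicative.toAdd w.right ≠ 0 := fun h => hne1 (Multiplicative.toAdd.injective h)
    have hval : (Multiplicative.toAdd w.right).val ≠ 0 := by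
      rwa [Ne, ZMod.val_eq_zero]
    have hlt : (Multiplicative.toAdd w.right).val < p := ZMod.val_lt _
    have hcop : Nat.Coprime (Multiplicative.toAdd w.right).val p := by
      apply Nat.Coprime.symm
      rw [hp.coprime_iff_not_dvd]
      intro hd
      exact hval (Nat.eq_zero_of_dvd_of_lt hd hlt)
    obtain ⟨m, -, hm⟩ := Nat.exists_mul_mod_eq_one_of_coprime hcop hp.one_lt
    apply hxA
    have h1 : x ^ ((Multiplicative.toAdd w.right).val * m) = x := by
      rw [pow_eq_pow_mod _ hxp, hm, pow_one]
    rw [← h1, pow_mul]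
    exact A.pow_mem hγA m
  have hleft : w.left = 1 := by
    apply hβinj
    rw [hright, map_one, mul_one] at hw'
    exact Subtype.ext hw'
  ext
  · rw [hleft]; rfl
  · rw [hright]; rfl

end Embed

end Cfsg.Agent.Lib.Helper32
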