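import Mathlib
import Cfsg.Prelude.Def_LocalEven
import Cfsg.Agent.Lib.Helper32.PL1Wr
import Cfsg.Agent.Lib.Helper34.InvolvesAux

/-!
# A section isomorphic to `C_p ≀ C_p` from a non-vanishing norm (helper32)

* `involves_wr_of_norm`: let `Φ ≤ R` be normal subgroups of `H` with `R / Φ` elementary abelian,
  `x ∉ R` with `x ^ p ∈ R`, and `v ∈ R` with `(v * x) ^ p * (x ^ p)⁻¹ ∉ Φ ⟨x ^ p⟩`. Then
  `C_p ≀ C_p` is involved in `R ⟨x⟩`.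
-/

set_option autoImplicit false

namespace Cfsg.Agent.Lib.Helper32

theorem involves_wr_of_norm {p : ℕ} [Fact p.Prime] {H : Type*} [Group H]
    (R Φ : Subgroup H) [hRn : R.Normal] [hΦn : Φ.Normal] (hΦR : Φ ≤ R)
    (hcomm : ∀ a ∈ R, ∀ b ∈ R, a * b * a⁻¹ * b⁻¹ ∈ Φ) (hexp : ∀ a ∈ R, a ^ p ∈ Φ)
    (x v : H) (hxR : x ∉ R) (hxp : x ^ p ∈ R) (hv : v ∈ R)
    (hN : (v * x) ^ p * (x ^ p)⁻¹ ∉ Φ ⊔ Subgroup.zpowers (x ^ p)) :
    Cfsg.Involves (Wr p) ↥(R ⊔ Subgroup.zpowers x) := by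
  set K₀ : Subgroup H := R ⊔ Subgroup.zpowers x with hK₀
  set Φ₁ : Subgroup H := Φ ⊔ Subgroup.zpowers (x ^ p) with hΦ₁
  have hΦ₁R : Φ₁ ≤ R := sup_le hΦR ((Subgroup.zpowers_le).2 hxp)
  have hRK : R ≤ K₀ := le_sup_left
  have hxK : x ∈ K₀ := (le_sup_right : Subgroup.zpowers x ≤ K₀) (Subgroup.mem_zpowers x)
  have hnorm : K₀ ≤ Subgroup.normalizer (Φ₁ : Set H) := by
    apply sup_le
    · rw [Subgroup.le_normalizer_iff]
      intro r hr n hn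
      have h1 := hcomm r hr n (hΦ₁R hn)
      have h2 : r * n * r⁻¹ = (r * n * r⁻¹ * n⁻¹) * n := by group
      rw [h2]
      exact Φ₁.mul_mem ((le_sup_left : Φ ≤ Φ₁) h1) hn
    · rw [Subgroup.le_normalizer_iff]
      intro h hh n hn
      obtain ⟨i, rfl⟩ := Subgroup.mem_zpowers_iff.1 hh
      obtain ⟨y, hy, z, hz, rfl⟩ := Subgroup.mem_sup_of_normal_left.1 hn
      obtain ⟨k, rfl⟩ := Subgroup.mem_zpowers_iff.1 hz
      have h2 : x ^ i * (y * (x ^ p) ^ k) * (x ^ i)⁻¹ =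
          (x ^ i * y * (x ^ i)⁻¹) * (x ^ p) ^ k := by group
      rw [h2]
      exact Φ₁.mul_mem ((le_sup_left : Φ ≤ Φ₁) (hΦn.conj_mem y hy _))
        ((le_sup_right : Subgroup.zpowers (x ^ p) ≤ Φ₁) (Subgroup.zpow_mem_zpowers _ k))
  haveI hn : (Φ₁.subgroupOf K₀).Normal := Subgroup.normal_subgroupOf_of_le_normalizer hnorm
  let π : ↥K₀ →* ↥K₀ ⧸ Φ₁.subgroupOf K₀ := QuotientGroup.mk' (Φ₁.subgroupOf K₀)
  have hπ1 : ∀ k : ↥K₀, π k = 1 ↔ (k : H) ∈ Φ₁ := by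
    intro k
    show (QuotientGroup.mk' (Φ₁.subgroupOf K₀)) k = 1 ↔ _
    rw [QuotientGroup.mk'_apply, QuotientGroup.eq_one_iff, Subgroup.mem_subgroupOf]
  let A : Subgroup (↥K₀ ⧸ Φ₁.subgroupOf K₀) := (R.subgroupOf K₀).map π
  haveI hAn : A.Normal :=
    Subgroup.Normal.map inferInstance π (QuotientGroup.mk'_surjective _)
  have hAmem : ∀ a ∈ A, ∃ r : ↥K₀, (r : H) ∈ R ∧ π r = a := by
    rintro a ⟨r, hr, rfl⟩
    exact ⟨r, Subgroup.mem_subgroupOf.1 hr, rfl⟩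
  have hAcomm : ∀ a ∈ A, ∀ b ∈ A, a * b = b * a := by
    intro a ha b hb
    obtain ⟨r, hr, rfl⟩ := hAmem a ha
    obtain ⟨s, hs, rfl⟩ := hAmem b hb
    have h1 : π (r * s * (s * r)⁻¹) = 1 := by
      rw [hπ1]
      have h2 := hcomm r hr s hs
      have h3 : ((r * s * (s * r)⁻¹ : ↥K₀) : H) = (r : H) * s * (r : H)⁻¹ * (s : H)⁻¹ := by
        simp [mul_assoc]
      rw [h3]
      exact (le_sup_left : Φ ≤ Φ₁) h2
    rw [map_mul, map_inv, mul_inv_eq_one] at h1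
    rw [← map_mul, ← map_mul]
    exact h1
  have hAexp : ∀ a ∈ A, a ^ p = 1 := by
    intro a ha
    obtain ⟨r, hr, rfl⟩ := hAmem a ha
    rw [← map_pow, hπ1]
    have h1 := hexp r hr
    exact (le_sup_left : Φ ≤ Φ₁) (by simpa using h1)
  have hxbA : π ⟨x, hxK⟩ ∉ A := by
    intro hx
    obtain ⟨r, hr, hrx⟩ := hAmem _ hx
    have h1 : π (r⁻¹ * ⟨x, hxK⟩) = 1 := by
      rw [map_mul, map_inv, hrx]
      exact inv_mul_cancel _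
    rw [hπ1] at h1
    have h2 : (r : H)⁻¹ * x ∈ R := hΦ₁R h1
    apply hxR
    have h3 : x = (r : H) * ((r : H)⁻¹ * x) := by group
    rw [h3]
    exact R.mul_mem hr h2
  have hxbp : (π ⟨x, hxK⟩) ^ p = 1 := by
    rw [← map_pow, hπ1]
    exact (le_sup_right : Subgroup.zpowers (x ^ p) ≤ Φ₁) (Subgroup.mem_zpowers _)
  have hvbA : π ⟨v, hRK hv⟩ ∈ A := ⟨⟨v, hRK hv⟩, Subgroup.mem_subgroupOf.2 hv, rfl⟩
  have hNb : (π ⟨v, hRK hv⟩ * π ⟨x, hxK⟩) ^ p ≠ 1 := by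
    intro h
    have h1 : π (((⟨v, hRK hv⟩ : ↥K₀) * ⟨x, hxK⟩) ^ p * ((⟨x, hxK⟩ : ↥K₀) ^ p)⁻¹) = 1 := by
      rw [map_mul, map_inv, map_pow, map_pow, map_mul, h, hxbp]
      simp
    rw [hπ1] at h1
    exact hN h1
  obtain ⟨θ, hθ⟩ := wr_embed A hAcomm hAexp (π ⟨x, hxK⟩) (π ⟨v, hRK hv⟩) hxbA hxbp hvbA hNb
  have h1 : Cfsg.Involves (Wr p) (↥K₀ ⧸ Φ₁.subgroupOf K₀) :=
    Cfsg.Agent.Lib.Helper34.involves_of_hom θ hθ (MonoidHom.id _) Function.surjective_id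
  exact Cfsg.Agent.Lib.Helper34.involves_of_quotient _ h1

end Cfsg.Agent.Lib.Helper32
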